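import Cfsg.Agent.ChevGrp.Twist


/-!
Moving root subgroups of a twisted group into a subgroup; additive sets stable under a square.
-/

set_option autoImplicit false

namespace Cfsg.Agent.LSG

open Cfsg.Agent.ChevGrp Cfsg.Agent.ChevWeyl Cfsg.Agent.ChevGrp.RGrp

variable {l n l' n' : ℕ} {S : WSys l n} {G : Type*} [Group G] {R : RGrp S G} {S' : WSys l' n'} (T : TwData R S')

theorem moveW {Q : Subgroup G} (L : List (Fin l')) (hL : (L.map T.nj).prod ∈ Q) {A B : Fin n'}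
    (h : S'.wd L A = B ∨ S'.wd L B = A) (hA : T.X' A ≤ Q) : T.X' B ≤ Q := by
  obtain ⟨u, h1, h2, h3, h4⟩ := TwData.lift_word (T := T) L
  intro x hx
  rcases h with rfl | rfl
  · have h5 := TwData.conj_X'_inv h2 h1 (T.G1_le_Fx h4) hx
    have e : (S'.wd L)⁻¹ (S'.wd L A) = A := by simp
    rw [e] at h5
    have e2 : x = (L.map T.nj).prod * (((L.map T.nj).prod)⁻¹ * x * (L.map T.nj).prod) * ((L.map T.nj).prod)⁻¹ := by group
    rw [e2]
    exact mul_mem (mul_mem hL (hA h5)) (inv_mem hL)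
  · have h5 := TwData.conj_X' h2 h1 (T.G1_le_Fx h4) hx
    have e2 : x = ((L.map T.nj).prod)⁻¹ * ((L.map T.nj).prod * x * ((L.map T.nj).prod)⁻¹) * (L.map T.nj).prod := by group
    rw [e2]
    exact mul_mem (mul_mem (inv_mem hL) (hA h5)) hL

theorem nj_mem_of {Q : Subgroup G} {j : Fin l'} (h1 : T.X' (S'.p j) ≤ Q) (h2 : T.X' (S'.neg (S'.p j)) ≤ Q) :
    T.nj j ∈ Q := by
  have h3 : Subgroup.closure {x | T.σ x = x ∧ (x ∈ gen R.X (fun r => T.cls r = S'.p j) ∨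
      x ∈ gen R.X (fun r => T.cls r = S'.neg (S'.p j)))} ≤ Q := by
    rw [Subgroup.closure_le]
    rintro x ⟨hx, h | h⟩
    · exact h1 ⟨h, hx⟩
    · exact h2 ⟨h, hx⟩
  exact h3 (T.nj_mem j)

/-- the subgroup generated by `h` and `x n` contains a root element: general computation -/
theorem comm_calc {G F : Type*} [Group G] [Field F] {x : F → G} (hadd : ∀ s t, x (s + t) = x s * x t) {h h' n : G}
    {χ μ : F} (h1 : ∀ t, h * x t * h⁻¹ = x (χ * t)) (hh' : h' = n * h * n⁻¹) (h2 : ∀ t, h' * x t * h'⁻¹ = x (μ * t))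
    (hcomm : h * h' = h' * h) {Q : Subgroup G} (hh : h ∈ Q) (hb : x 1 * n ∈ Q) : x ((χ - 1) * (1 - μ)) ∈ Q := by
  have hzero : x 0 = 1 := by
    have := hadd 0 0
    rw [add_zero] at this
    exact left_eq_mul.1 this
  have hneg : ∀ t, (x t)⁻¹ = x (-t) := by
    intro t
    rw [inv_eq_iff_mul_eq_one, ← hadd, add_neg_cancel, hzero]
  have e0 : ∀ t : F, h' * x t = x (μ * t) * h' := by
    intro t; rw [← h2]; group
  have e0' : ∀ t : F, h * x t = x (χ * t) * h := by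
    intro t; rw [← h1]; group
  have e1 : h * ((x 1 * n) * h * (x 1 * n)⁻¹) * h⁻¹ * ((x 1 * n) * h * (x 1 * n)⁻¹)⁻¹ = x ((χ - 1) * (1 - μ)) := by
    have f1 : (x 1 * n) * h * (x 1 * n)⁻¹ = x 1 * h' * (x 1)⁻¹ := by rw [hh']; group
    rw [f1]
    have f2 : h * (x 1 * h' * (x 1)⁻¹) * h⁻¹ * (x 1 * h' * (x 1)⁻¹)⁻¹ =
        (h * x 1) * h' * ((x 1)⁻¹ * h⁻¹) * x 1 * h'⁻¹ * (x 1)⁻¹ := by group
    have f3 : (x 1)⁻¹ * h⁻¹ = h⁻¹ * x (-χ) := by
      rw [eq_inv_mul_iff_mul_eq, hneg, ← mul_assoc, e0', mul_neg, mul_one]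
      group
    rw [f2, f3, e0']
    have f4 : x (χ * 1) * h * h' * (h⁻¹ * x (-χ)) * x 1 * h'⁻¹ * (x 1)⁻¹ =
        x (χ * 1) * (h * h' * h⁻¹) * (x (-χ) * x 1) * h'⁻¹ * (x 1)⁻¹ := by group
    rw [f4, hcomm, ← hadd, hneg]
    have f5 : x (χ * 1) * (h' * h * h⁻¹) * x (-χ + 1) * h'⁻¹ * x (-1) =
        x (χ * 1) * (h' * x (-χ + 1)) * h'⁻¹ * x (-1) := by group
    rw [f5, e0]
    have f6 : x (χ * 1) * (x (μ * (-χ + 1)) * h') * h'⁻¹ * x (-1) =
        x (χ * 1) * x (μ * (-χ + 1)) * x (-1) := by group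
    rw [f6, ← hadd, ← hadd]
    congr 1
    ring
  rw [← e1]
  exact mul_mem (mul_mem (mul_mem hh (mul_mem (mul_mem hb hh) (inv_mem hb))) (inv_mem hh))
    (inv_mem (mul_mem (mul_mem hb hh) (inv_mem hb)))

/-- every element of a finite field is a sum of two squares -/
theorem sum_two_sq' {F : Type*} [Field F] [Fintype F] (x : F) : ∃ a b : F, a ^ 2 + b ^ 2 = x := by
  classical
  by_cases h : ringChar F = 2
  · obtain ⟨a, ha⟩ := FiniteField.isSquare_of_char_two h x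
    exact ⟨a, 0, by rw [ha]; ring⟩
  · have hodd := FiniteField.odd_card_of_char_ne_two h
    obtain ⟨a, b, hab⟩ := FiniteField.exists_root_sum_quadratic (R := F) (f := Polynomial.X ^ 2)
      (g := Polynomial.X ^ 2 - Polynomial.C x) (Polynomial.degree_X_pow 2)
      (Polynomial.degree_X_pow_sub_C (by norm_num) x) hodd
    refine ⟨a, b, ?_⟩
    simp only [Polynomial.eval_pow, Polynomial.eval_X, Polynomial.eval_sub, Polynomial.eval_C] at hab
    linear_combination hab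

/-- an additive subset stable under the square of a generator is everything -/
theorem add_full' {F : Type*} [Field F] [Fintype F] {A : Set F} (hadd : ∀ s ∈ A, ∀ t ∈ A, s + t ∈ A) (h0 : (0 : F) ∈ A)
    {ζ : Fˣ} (hζ : ∀ x : Fˣ, x ∈ Subgroup.zpowers ζ) (hmul : ∀ t ∈ A, (ζ : F) ^ 2 * t ∈ A) {v : F} (hv : v ∈ A)
    (hv0 : v ≠ 0) (x : F) : x ∈ A := by
  classical
  have h1 : ∀ n : ℕ, ((ζ : F) ^ n) ^ 2 * v ∈ A := by
    intro n
    induction n with
    | zero => simpa using hv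
    | succ n ih =>
      have := hmul _ ih
      have e : (ζ : F) ^ 2 * (((ζ : F) ^ n) ^ 2 * v) = ((ζ : F) ^ (n + 1)) ^ 2 * v := by ring
      rwa [e] at this
  have h2 : ∀ a : F, a ^ 2 * v ∈ A := by
    intro a
    by_cases ha : a = 0
    · rw [ha]; simpa using h0
    · obtain ⟨n, hn⟩ := (Submonoid.mem_powers_iff _ _).1 ((mem_powers_iff_mem_zpowers).2 (hζ (Units.mk0 a ha)))
      have h3 : (ζ : F) ^ n = a := by
        have := congrArg (fun u : Fˣ => (u : F)) hn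
        simpa using this
      rw [← h3]; exact h1 n
  obtain ⟨a, b, hab⟩ := sum_two_sq' (x * v⁻¹)
  have h3 : x = a ^ 2 * v + b ^ 2 * v := by
    rw [← add_mul, hab, mul_assoc, inv_mul_cancel₀ hv0, mul_one]
  rw [h3]; exact hadd _ (h2 a) _ (h2 b)

end Cfsg.Agent.LSG
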