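import Cfsg.Agent.LSD.Conc
import Cfsg.Agent.LSD.Inv3

/-!
The triality groups are generated by two elements.
-/

set_option autoImplicit false
set_option maxRecDepth 100000
set_option linter.unusedSectionVars false
set_option linter.unusedSimpArgs false

namespace Cfsg.Agent.LSG

open Cfsg.Lie Cfsg.Agent.Chev Cfsg.Agent.ChevGrp Cfsg.Agent.ChevGrp.DData Cfsg.Agent.ChevWeyl Cfsg.Agent.ChevTw
  Cfsg.Agent.Tw3 Cfsg.Agent.LSD

/-- every element of a finite field is a sum of two squares -/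
theorem sum_two_sq {F : Type*} [Field F] [Fintype F] (x : F) : ∃ a b : F, a ^ 2 + b ^ 2 = x := by
  classical
  by_cases h : ringChar F = 2
  · obtain ⟨a, ha⟩ := FiniteField.isSquare_of_char_two h x
    exact ⟨a, 0, by rw [ha]; ring⟩
  · have hodd := FiniteField.odd_card_of_char_ne_two h
    obtain ⟨a, b, hab⟩ := FiniteField.exists_root_sum_quadratic (R := F) (f := Polynomial.X ^ 2)
      (g := Polynomial.X ^ 2 - Polynomial.C x) (Polynomial.degree_X_pow 2)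
      (Polynomial.degree_X_pow_sub_C (by norm_num) x) hodd
    refine ⟨a, b, ?_⟩
    simp only [Polynomial.eval_pow, Polynomial.eval_X, Polynomial.eval_sub, Polynomial.eval_C] at hab
    linear_combination hab

/-- an additive subset stable under the square of a generator is everything -/
theorem add_full {F : Type*} [Field F] [Fintype F] {A : Set F} (hadd : ∀ s ∈ A, ∀ t ∈ A, s + t ∈ A) (h0 : (0 : F) ∈ A)
    {ζ : Fˣ} (hζ : ∀ x : Fˣ, x ∈ Subgroup.zpowers ζ) (hmul : ∀ t ∈ A, (ζ : F) ^ 2 * t ∈ A) {v : F} (hv : v ∈ A)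
    (hv0 : v ≠ 0) (x : F) : x ∈ A := by
  classical
  have h1 : ∀ n : ℕ, ((ζ : F) ^ n) ^ 2 * v ∈ A := by
    intro n
    induction n with
    | zero => simpa using hv
    | succ n ih =>
      have := hmul _ ih
      have e : (ζ : F) ^ 2 * (((ζ : F) ^ n) ^ 2 * v) = ((ζ : F) ^ (n + 1)) ^ 2 * v := by ring
      rwa [e] at this
  have h2 : ∀ a : F, a ^ 2 * v ∈ A := by
    intro a
    by_cases ha : a = 0
    · rw [ha]; simpa using h0
    · obtain ⟨n, hn⟩ := (Submonoid.mem_powers_iff _ _).1 ((mem_powers_iff_mem_zpowers).2 (hζ (Units.mk0 a ha)))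
      have h3 : (ζ : F) ^ n = a := by
        have := congrArg (fun u : Fˣ => (u : F)) hn
        simpa using this
      rw [← h3]; exact h1 n
  obtain ⟨a, b, hab⟩ := sum_two_sq (x * v⁻¹)
  have h3 : x = a ^ 2 * v + b ^ 2 * v := by
    rw [← add_mul, hab, mul_assoc, inv_mul_cancel₀ hv0, mul_one]
  rw [h3]; exact hadd _ (h2 a) _ (h2 b)

variable {K : Type*} [Field K] (φ : K ≃+* K)

theorem aa_xb (t : K) : aa φ t = (bdD4 goodD4 dD4 dG2 φ).xb dD4.rp.wsys.p j0 t := by rw [xbp0]; rfl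

theorem aa_add (s t : K) : aa φ (s + t) = aa φ s * aa φ t := by
  rw [aa_xb, aa_xb, aa_xb]
  exact (bdD4 goodD4 dD4 dG2 φ).xb_add (Or.inl rfl) j0 s t

theorem aa_zero : aa φ 0 = 1 := by
  rw [aa_xb]; exact (bdD4 goodD4 dD4 dG2 φ).xb_zero _ j0


/-- the action of a torus element of the twisted group -/
theorem tor_conj {g : ↥(chevD4.group K)} (hg : g ∈ (tD4 φ).tw.H) (h3 : ∀ t, φ (φ (φ t)) = t) :
    ∃ μ : Kˣ, (∀ t : K, g * X 18 t * g⁻¹ = X 18 (μ * t)) ∧ ∀ t : K, g * aa φ t * g⁻¹ = aa φ (μ * t) := by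
  have h1 : g ∈ (amb goodD4 dD4 K).R.H ∧ g ∈ (tD4 φ).G1 := by
    rw [TwData.tw_H] at hg; exact hg
  obtain ⟨χ, hχ⟩ := (amb goodD4 dD4 K).H_char h1.1
  refine ⟨χ (⟨18, by decide⟩ : Fin chevD4.nroots), fun t => hχ (⟨18, by decide⟩ : Fin chevD4.nroots) t, fun t => ?_⟩
  have h2 := ((bdD4 goodD4 dD4 dG2 φ).conj_xb ((tD4 φ).G1_le_Fx h1.2) hχ (Or.inl rfl) j0 (fx0 goodD4 dD4 dG2 φ h3 t)).1
  rw [aa_xb, aa_xb, h2]
  have h4 : dD4.rp.wsys.p ((bdD4 goodD4 dD4 dG2 φ).b j0) = (⟨18, by decide⟩ : Fin chevD4.nroots) := by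
    apply Fin.ext
    exact (pD4_val dD4 _)
  rw [h4]

theorem gtab : chevD4.cartan 0 17 = -1 ∧ chevD4.cartan 2 17 = 1 ∧ chevD4.cartan 3 17 = 1 ∧ chevD4.cartan 0 18 = 2 ∧
    chevD4.cartan 2 18 = 0 ∧ chevD4.cartan 3 18 = 0 := by decide +kernel

theorem gtab2 : jwD4 1 19 = 18 ∧ jwD4 0 17 = 19 := by decide +kernel

theorem gtab3 : chevG2.reflectRoot 0 7 = 4 ∧ chevG2.reflectRoot 1 4 = 3 ∧ chevG2.reflectRoot 0 3 = 2 ∧
    chevG2.reflectRoot 1 2 = 2 ∧ chevG2.reflectRoot 0 2 = 3 ∧ chevG2.reflectRoot 1 3 = 4 ∧ chevG2.reflectRoot 0 4 = 7 ∧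
    chevG2.reflectRoot 1 7 = 8 ∧ chevG2.reflectRoot 0 8 = 9 ∧ chevG2.reflectRoot 1 9 = 9 ∧ chevG2.reflectRoot 1 11 = 10 ∧
    chevG2.reflectRoot 0 10 = 6 ∧ chevG2.reflectRoot 1 6 = 5 ∧ chevG2.neg 7 = 4 ∧ chevG2.neg 6 = 5 := by decide +kernel

theorem y8_mem' (h3 : ∀ t, φ (φ (φ t)) = t) (s : K) : X 15 (-φ (φ s)) * (X 16 (-φ s) * X 19 s) ∈ (tD4 φ).X' (ix 8) := by
  obtain ⟨⟨a1, a2, a3, a4⟩, ⟨b1, b2, b3, b4⟩, ⟨d1, d2⟩, e1, e2⟩ := tab5
  refine ⟨mul_mem (X_mem_cls φ (A := 8) (by norm_num) (by norm_num) tab6.2.1 _)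
    (mul_mem (X_mem_cls φ (by norm_num) (by norm_num) tab6.2.2.1 _)
      (X_mem_cls φ (by norm_num) (by norm_num) tab6.2.2.2.1 _)), ?_⟩
  change (tD4 φ).σ _ = _
  rw [map_mul, map_mul, sg_X φ (by norm_num), sg_X φ (by norm_num), sg_X φ (by norm_num), a2, a3, a4, b2, b3, b4]
  simp only [Int.cast_neg, Int.cast_one, neg_mul, one_mul, map_neg, h3, _root_.neg_neg]
  have c1 := X_comm (tab7 (15, 19) (by simp)) (-φ (φ s)) s
  have c2 := X_comm (tab7 (16, 19) (by simp)) (-φ s) s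
  rw [← mul_assoc, ← c1, mul_assoc, ← c2]

theorem tab9 : cD4 17 = 9 ∧ cD4 20 = 9 ∧ cD4 21 = 9 := by decide +kernel

theorem y9_mem'' (h3 : ∀ t, φ (φ (φ t)) = t) (v : K) :
    X 17 v * (X 20 (-φ v) * X 21 (-φ (φ v))) ∈ (tD4 φ).X' (ix 9) := by
  refine ⟨mul_mem (X_mem_cls φ (A := 9) (by norm_num) (by norm_num) tab9.1 _)
    (mul_mem (X_mem_cls φ (by norm_num) (by norm_num) tab9.2.1 _)
      (X_mem_cls φ (by norm_num) (by norm_num) tab9.2.2 _)), ?_⟩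
  exact y9_fixed goodD4 dD4 dG2 φ h3 v

theorem cD4_11 : ∀ r < 24, cD4 r = 11 → r = 23 := by decide +kernel

theorem mem11' {x : ↥(chevD4.group K)} (hx : x ∈ (tD4 φ).X' (ix 11)) : ∃ c, φ c = c ∧ x = X 23 c := by
  have h1 : gen (amb goodD4 dD4 K).R.X (fun r => (tD4 φ).cls r = ix 11) =
      (amb goodD4 dD4 K).R.X (⟨23, by decide⟩ : Fin chevD4.nroots) := by
    apply gen_one
    intro r
    constructor
    · intro h
      apply Fin.ext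
      exact cD4_11 r r.2 (congrArg Fin.val h)
    · rintro rfl
      exact Fin.ext tab6.2.2.2.2.2
  have h2 : x ∈ (amb goodD4 dD4 K).R.X (⟨23, by decide⟩ : Fin chevD4.nroots) := by
    rw [← h1]; exact hx.1
  obtain ⟨c, hc⟩ := ((amb goodD4 dD4 K).mem_X _ _).1 h2
  have hc' : X 23 c = x := hc
  refine ⟨c, ?_, hc'.symm⟩
  apply fix_of_mem φ
  rw [hc']
  exact TwData.X'_le_G1 _ hx

theorem gtab4 : chevG2.reflectRoot 1 10 = 11 ∧ chevG2.reflectRoot 0 6 = 10 ∧ chevG2.reflectRoot 1 5 = 6 := by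
  decide +kernel

/-- conjugating root subgroups into a subgroup -/
theorem move {S : Subgroup ↥(chevD4.group K)} (j : Fin chevG2.rank) (hj : (tD4 φ).nj j ∈ S) {A B : Fin chevG2.nroots}
    (h : chevG2.reflectRoot j B = A) (hA : (tD4 φ).X' A ≤ S) : (tD4 φ).X' B ≤ S := by
  intro x hx
  obtain ⟨y, hy, rfl⟩ := desc φ j h hx
  exact mul_mem (mul_mem hj (hA hy)) (inv_mem hj)

theorem move2 {S : Subgroup ↥(chevD4.group K)} (hn : (tD4 φ).nj j1 * (tD4 φ).nj j0 ∈ S) {A B C : Fin chevG2.nroots}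
    (h : chevG2.reflectRoot 1 B = A) (h' : chevG2.reflectRoot 0 C = B) (hA : (tD4 φ).X' A ≤ S) :
    (tD4 φ).X' C ≤ S := by
  intro x hx
  have h1 := TwData.conj_X' ((tD4 φ).act_nj j0) (TwData.lift_w j0) ((tD4 φ).σ_nj j0) hx
  rw [w_eq j0 h'] at h1
  have h2 := TwData.conj_X' ((tD4 φ).act_nj j1) (TwData.lift_w j1) ((tD4 φ).σ_nj j1) h1
  rw [w_eq j1 h] at h2
  have h3 : x = ((tD4 φ).nj j1 * (tD4 φ).nj j0)⁻¹ * ((tD4 φ).nj j1 * ((tD4 φ).nj j0 * x * ((tD4 φ).nj j0)⁻¹) *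
      ((tD4 φ).nj j1)⁻¹) * ((tD4 φ).nj j1 * (tD4 φ).nj j0) := by group
  rw [h3]
  exact mul_mem (mul_mem (inv_mem hn) (hA h2)) hn

theorem gens [Fintype K] {q : ℕ} (hq : IsPrimePow q) (hK : Fintype.card K = q ^ 3) (hφ : ∀ t : K, φ t = t ^ q)
    (h3 : ∀ t, φ (φ (φ t)) = t) :
    ∃ a ∈ (tD4 φ).G1, ∃ b ∈ (tD4 φ).G1, (tD4 φ).G1 ≤ Subgroup.closure {a, b} := by
  classical
  obtain ⟨ζ, hζ⟩ := IsCyclic.exists_generator (α := Kˣ)
  obtain ⟨h, hh⟩ : ∃ h, h = (bdD4 goodD4 dD4 dG2 φ).hb j0 ζ := ⟨_, rfl⟩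
  have hhG : h ∈ (tD4 φ).G1 := by
    rw [hh]; exact (bdD4 goodD4 dD4 dG2 φ).hb_mem_G1 j0 (fx0 goodD4 dD4 dG2 φ h3 _)
  have hhH : h ∈ (tD4 φ).tw.H := by
    rw [TwData.tw_H]
    exact ⟨by rw [hh]; exact (bdD4 goodD4 dD4 dG2 φ).hb_mem_H j0 ζ, hhG⟩
  obtain ⟨n, hn⟩ : ∃ n, n = (tD4 φ).nj j1 * (tD4 φ).nj j0 := ⟨_, rfl⟩
  have hnG : n ∈ (tD4 φ).G1 := by rw [hn]; exact mul_mem ((tD4 φ).nj_G1 j1) ((tD4 φ).nj_G1 j0)
  have hnN : n ∈ (tD4 φ).tw.N := by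
    rw [hn]; exact mul_mem ((tD4 φ).tw.nn_mem_N j1) ((tD4 φ).tw.nn_mem_N j0)
  -- cardinality facts
  have hord : orderOf ζ = q ^ 3 - 1 := by
    rw [orderOf_eq_card_of_forall_mem_zpowers hζ, Nat.card_eq_fintype_card, Fintype.card_units, hK]
  have hq2 := hq.two_le
  have hpow : ∀ m : ℕ, m ≠ 0 → m < q ^ 3 - 1 → ζ ^ m ≠ 1 := by
    intro m hm hlt h
    have := Nat.le_of_dvd (Nat.pos_of_ne_zero hm) (orderOf_dvd_of_pow_eq_one h)
    omega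
  have hq3 : q ^ 2 + q < q ^ 3 := by
    obtain ⟨r, rfl⟩ : ∃ r, q = r + 2 := ⟨q - 2, by omega⟩
    ring_nf
    nlinarith [Nat.zero_le r]
  obtain ⟨c1, c2, c3, c4, c5, c6⟩ := gtab
  -- the action of `h`
  obtain ⟨χ, hχ1, hχ2⟩ := tor_conj φ hhH h3
  have hχ : χ = ζ ^ 2 := by
    have e1 := (bdD4 goodD4 dD4 dG2 φ).hb_conj j0 ζ (⟨18, by decide⟩ : Fin chevD4.nroots) 1
    rw [← hh] at e1
    have e2 := hχ1 1
    have e3 : X 18 ((χ : K) * 1) = X 18 ((((bdD4 goodD4 dD4 dG2 φ).chb j0 ζ (⟨18, by decide⟩ : Fin chevD4.nroots) : Kˣ) : K) * 1) :=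
      e2.symm.trans e1
    have e4 := ((amb goodD4 dD4 K).x_eq_iff (⟨18, by decide⟩ : Fin chevD4.nroots) _ _).1 e3
    rw [mul_one, mul_one, chb_j0] at e4
    have e5 : ζ ^ chevD4.cartan 0 ((⟨18, by decide⟩ : Fin chevD4.nroots) : ℕ) *
        (φu φ ζ ^ chevD4.cartan 2 ((⟨18, by decide⟩ : Fin chevD4.nroots) : ℕ) *
          φu φ (φu φ ζ) ^ chevD4.cartan 3 ((⟨18, by decide⟩ : Fin chevD4.nroots) : ℕ)) = ζ ^ 2 := by
      change ζ ^ chevD4.cartan 0 18 * (φu φ ζ ^ chevD4.cartan 2 18 * φu φ (φu φ ζ) ^ chevD4.cartan 3 18) = ζ ^ 2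
      rw [c4, c5, c6, zpow_zero, zpow_zero, mul_one, mul_one]; rfl
    rw [e5] at e4
    exact Units.ext e4
  have hχne : χ ≠ 1 := by
    rw [hχ]
    apply hpow 2 (by norm_num)
    have : 2 ^ 3 ≤ q ^ 3 := Nat.pow_le_pow_left hq2 3
    omega
  -- the action of `h` on the root 17
  obtain ⟨ν, hν⟩ : ∃ ν : Kˣ, ν = ζ ^ (q ^ 2 + q - 1) := ⟨_, rfl⟩
  have hνne : ν ≠ 1 := by
    rw [hν]
    have : q ≤ q ^ 2 := by nlinarith
    exact hpow _ (by omega) (by omega)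
  have hνact : ∀ t : K, h * X 17 t * h⁻¹ = X 17 ((ν : K) * t) := by
    intro t
    have e1 := (bdD4 goodD4 dD4 dG2 φ).hb_conj j0 ζ (⟨17, by decide⟩ : Fin chevD4.nroots) t
    rw [← hh, chb_j0] at e1
    have e5 : ζ ^ chevD4.cartan 0 ((⟨17, by decide⟩ : Fin chevD4.nroots) : ℕ) *
        (φu φ ζ ^ chevD4.cartan 2 ((⟨17, by decide⟩ : Fin chevD4.nroots) : ℕ) *
          φu φ (φu φ ζ) ^ chevD4.cartan 3 ((⟨17, by decide⟩ : Fin chevD4.nroots) : ℕ)) = ν := by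
      change ζ ^ chevD4.cartan 0 17 * (φu φ ζ ^ chevD4.cartan 2 17 * φu φ (φu φ ζ) ^ chevD4.cartan 3 17) = ν
      rw [c1, c2, c3, zpow_one, zpow_one, zpow_neg_one, hν]
      have f1 : φu φ ζ = ζ ^ q := Units.ext (by rw [φu_val, hφ, Units.val_pow_eq_pow_val])
      have f2 : φu φ (ζ ^ q) = ζ ^ (q * q) := by rw [map_pow, f1, ← pow_mul]
      rw [f1, f2, inv_mul_eq_iff_eq_mul, ← pow_add, ← pow_succ']
      congr 1
      have : q ≤ q ^ 2 := by nlinarith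
      have e : q * q = q ^ 2 := by ring
      omega
    rw [e5] at e1
    exact e1
  -- the conjugate of `h`
  obtain ⟨h', hh'⟩ : ∃ h', h' = n * h * n⁻¹ := ⟨_, rfl⟩
  have hh'H : h' ∈ (tD4 φ).tw.H := by rw [hh']; exact RGrp.N_conj_H hnN hhH
  obtain ⟨μ, hμ1, hμ2⟩ := tor_conj φ hh'H h3
  have hμ : μ ≠ 1 := by
    rintro rfl
    obtain ⟨d, hd0, hd⟩ := conj_w φ j0 (r := 17) (s := 19) (by norm_num) (by norm_num) gtab2.2 (one_ne_zero (α := K))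
    obtain ⟨d', hd0', hd'⟩ := conj_w φ j1 (r := 19) (s := 18) (by norm_num) (by norm_num) gtab2.1 hd0
    have e1 : n * X 17 1 * n⁻¹ = X 18 d' := by
      rw [← hd', ← hd, hn]; group
    have e2 := hμ1 d'
    rw [Units.val_one, one_mul, ← e1, hh'] at e2
    have e3 : h * X 17 1 * h⁻¹ = X 17 1 := by
      have : h * X 17 1 * h⁻¹ = n⁻¹ * (n * h * n⁻¹ * (n * X 17 1 * n⁻¹) * (n * h * n⁻¹)⁻¹) * n := by group
      rw [this, e2]; group
    rw [hνact] at e3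
    have e4 := ((amb goodD4 dD4 K).x_eq_iff (⟨17, by decide⟩ : Fin chevD4.nroots) _ _).1 e3
    rw [mul_one] at e4
    exact hνne (Units.ext e4)
  have haa : aa φ 1 ∈ (tD4 φ).G1 := aa_mem φ h3 1
  refine ⟨h, hhG, aa φ 1 * n, mul_mem haa hnG, ?_⟩
  obtain ⟨S, hS⟩ : ∃ S, S = Subgroup.closure {h, aa φ 1 * n} := ⟨_, rfl⟩
  rw [← hS]
  have hhS : h ∈ S := by rw [hS]; exact Subgroup.subset_closure (by simp)
  have hbS : aa φ 1 * n ∈ S := by rw [hS]; exact Subgroup.subset_closure (by simp)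
  -- a root element in `S`
  have haaneg : ∀ t, (aa φ t)⁻¹ = aa φ (-t) := by
    intro t
    rw [inv_eq_iff_mul_eq_one, ← aa_add, add_neg_cancel, aa_zero]
  have hv : aa φ (((χ : K) - 1) * (1 - μ)) ∈ S := by
    have e0 : ∀ t : K, h' * aa φ t = aa φ (μ * t) * h' := by
      intro t; rw [← hμ2]; group
    have e0' : ∀ t : K, h * aa φ t = aa φ (χ * t) * h := by
      intro t; rw [← hχ2]; group
    have hcomm : h * h' = h' * h := (amb goodD4 dD4 K).H_comm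
      (by rw [TwData.tw_H] at hhH; exact hhH.1) (by rw [TwData.tw_H] at hh'H; exact hh'H.1)
    have e1 : h * ((aa φ 1 * n) * h * (aa φ 1 * n)⁻¹) * h⁻¹ * ((aa φ 1 * n) * h * (aa φ 1 * n)⁻¹)⁻¹ =
        aa φ (((χ : K) - 1) * (1 - μ)) := by
      have f1 : (aa φ 1 * n) * h * (aa φ 1 * n)⁻¹ = aa φ 1 * h' * (aa φ 1)⁻¹ := by rw [hh']; group
      rw [f1]
      have f2 : h * (aa φ 1 * h' * (aa φ 1)⁻¹) * h⁻¹ * (aa φ 1 * h' * (aa φ 1)⁻¹)⁻¹ =
          (h * aa φ 1) * h' * ((aa φ 1)⁻¹ * h⁻¹) * aa φ 1 * h'⁻¹ * (aa φ 1)⁻¹ := by group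
      have f3 : (aa φ 1)⁻¹ * h⁻¹ = h⁻¹ * aa φ (-χ) := by
        rw [eq_inv_mul_iff_mul_eq, haaneg, ← mul_assoc, e0', mul_neg, mul_one]
        group
      rw [f2, f3, e0']
      have f4 : aa φ (χ * 1) * h * h' * (h⁻¹ * aa φ (-χ)) * aa φ 1 * h'⁻¹ * (aa φ 1)⁻¹ =
          aa φ (χ * 1) * (h * h' * h⁻¹) * (aa φ (-χ) * aa φ 1) * h'⁻¹ * (aa φ 1)⁻¹ := by group
      rw [f4, hcomm, ← aa_add, haaneg]
      have f5 : aa φ (χ * 1) * (h' * h * h⁻¹) * aa φ (-χ + 1) * h'⁻¹ * aa φ (-1) =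
          aa φ (χ * 1) * (h' * aa φ (-χ + 1)) * h'⁻¹ * aa φ (-1) := by group
      rw [f5, e0]
      have f6 : aa φ (χ * 1) * (aa φ (μ * (-χ + 1)) * h') * h'⁻¹ * aa φ (-1) =
          aa φ (χ * 1) * aa φ (μ * (-χ + 1)) * aa φ (-1) := by group
      rw [f6, ← aa_add, ← aa_add]
      congr 1
      ring
    rw [← e1]
    exact mul_mem (mul_mem (mul_mem hhS (mul_mem (mul_mem hbS hhS) (inv_mem hbS))) (inv_mem hhS))
      (inv_mem (mul_mem (mul_mem hbS hhS) (inv_mem hbS)))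
  have hv0 : ((χ : K) - 1) * (1 - μ) ≠ 0 := by
    refine mul_ne_zero (sub_ne_zero.2 fun h => hχne (Units.ext h)) (sub_ne_zero.2 fun h => hμ (Units.ext h.symm))
  have hall : ∀ x, aa φ x ∈ S := by
    intro x
    refine add_full (A := {t | aa φ t ∈ S}) (fun s hs t ht => ?_) ?_ hζ (fun t ht => ?_) hv hv0 x
    · change aa φ (s + t) ∈ S
      rw [aa_add]; exact mul_mem hs ht
    · change aa φ 0 ∈ S
      rw [aa_zero]; exact one_mem _
    · change aa φ ((ζ : K) ^ 2 * t) ∈ S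
      have : aa φ ((ζ : K) ^ 2 * t) = h * aa φ t * h⁻¹ := by
        rw [hχ2, hχ, Units.val_pow_eq_pow_val]
      rw [this]
      exact mul_mem (mul_mem hhS ht) (inv_mem hhS)
  have hnS : (tD4 φ).nj j1 * (tD4 φ).nj j0 ∈ S := by
    rw [← hn]
    have : n = (aa φ 1)⁻¹ * (aa φ 1 * n) := by group
    rw [this]; exact mul_mem (inv_mem (hall 1)) hbS
  obtain ⟨g1, g2, g3, g4, g5, g6, g7, g8, g9, g10, g11, g12, g13, g14, g15⟩ := gtab3
  have m7 : (tD4 φ).X' (ix 7) ≤ S := by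
    intro x hx
    obtain ⟨t, rfl⟩ := mem7 φ hx
    exact hall t
  have m9 : (tD4 φ).X' (ix 9) ≤ S := move2 φ (A := ix 7) (B := ix 8) (C := ix 9) hnS refG2.1 refG2.2.1 m7
  have m8 : (tD4 φ).X' (ix 8) ≤ S := move2 φ (A := ix 9) (B := ix 9) (C := ix 8) hnS g10 g9 m9
  have m4 : (tD4 φ).X' (ix 4) ≤ S := by
    refine move2 φ (A := ix 8) (B := ix 7) (C := ix 4) hnS g8 g7 m8
  have hneg7 : dG2.rp.wsys.neg (dG2.rp.wsys.p j0) = ix 4 := by
    rw [p0_eq]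
    apply Fin.ext
    exact (dG2.hneg _).trans g14
  have hneg6 : dG2.rp.wsys.neg (dG2.rp.wsys.p j1) = ix 5 := by
    rw [p1_eq]
    apply Fin.ext
    exact (dG2.hneg _).trans g15
  have hj0 : (tD4 φ).nj j0 ∈ S := by
    have h1 : Subgroup.closure {x | (tD4 φ).σ x = x ∧ (x ∈ gen (amb goodD4 dD4 K).R.X (fun r => (tD4 φ).cls r = dG2.rp.wsys.p j0) ∨
        x ∈ gen (amb goodD4 dD4 K).R.X (fun r => (tD4 φ).cls r = dG2.rp.wsys.neg (dG2.rp.wsys.p j0)))} ≤ S := by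
      rw [Subgroup.closure_le]
      rintro x ⟨hx, h | h⟩
      · rw [p0_eq] at h; exact m7 ⟨h, hx⟩
      · rw [hneg7] at h; exact m4 ⟨h, hx⟩
    exact h1 ((tD4 φ).nj_mem j0)
  have hj1 : (tD4 φ).nj j1 ∈ S := by
    have : (tD4 φ).nj j1 = ((tD4 φ).nj j1 * (tD4 φ).nj j0) * ((tD4 φ).nj j0)⁻¹ := by group
    rw [this]; exact mul_mem hnS (inv_mem hj0)
  have m11 : (tD4 φ).X' (ix 11) ≤ S := by
    intro x hx
    obtain ⟨c, hc, rfl⟩ := mem11' φ hx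
    obtain ⟨t, ht⟩ := tr_surj (K := K) hq2 hK hφ h3 hc
    have hA := m8 (y8_mem' φ h3 t)
    have hB := m9 (y9_mem'' φ h3 1)
    have e1 : X 15 (-φ (φ t)) * (X 16 (-φ t) * X 19 t) = ee φ 0 t 0 0 := by
      rw [ee_eq]
      simp only [map_zero, neg_zero]
      rw [X_zero (by norm_num), X_zero (by norm_num), X_zero (by norm_num), X_zero (by norm_num), X_zero (by norm_num)]
      simp only [one_mul, mul_one]
    have e2 : X 17 (1 : K) * (X 20 (-φ 1) * X 21 (-φ (φ 1))) = ee φ 0 0 1 0 := by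
      rw [ee_eq]
      simp only [map_zero, neg_zero]
      rw [X_zero (by norm_num), X_zero (by norm_num), X_zero (by norm_num), X_zero (by norm_num), X_zero (by norm_num)]
      simp only [one_mul, mul_one]
    rw [e1] at hA
    rw [e2] at hB
    have e3 : ee φ 0 0 1 0 * ee φ 0 t 0 0 = ee φ 0 t 0 0 * ee φ 0 0 1 0 * X 23 c := by
      rw [ee_mul, ee_mul]
      simp only [mul_one, mul_zero, zero_mul, sub_zero, map_zero, add_zero, zero_add, ht]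
      rw [X_zero (by norm_num), mul_one]
    have e4 : X 23 c = (ee φ 0 t 0 0 * ee φ 0 0 1 0)⁻¹ * (ee φ 0 0 1 0 * ee φ 0 t 0 0) := by rw [e3]; group
    rw [e4]
    exact mul_mem (inv_mem (mul_mem hA hB)) (mul_mem hB hA)
  have m10 : (tD4 φ).X' (ix 10) ≤ S := move φ (A := ix 11) (B := ix 10) j1 hj1 (by
    change chevG2.reflectRoot 1 10 = 11
    exact gtab4.1) m11
  have m6 : (tD4 φ).X' (ix 6) ≤ S := move φ (A := ix 10) (B := ix 6) j0 hj0 (by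
    change chevG2.reflectRoot 0 6 = 10
    exact gtab4.2.1) m10
  have m5 : (tD4 φ).X' (ix 5) ≤ S := move φ (A := ix 6) (B := ix 5) j1 hj1 (by
    change chevG2.reflectRoot 1 5 = 6
    exact gtab4.2.2) m6
  rw [(tD4 φ).G1_eq']
  refine iSup_le fun j => ?_
  rcases j_cases j with rfl | rfl
  · rw [hneg7, p0_eq]; exact sup_le m7 m4
  · rw [hneg6, p1_eq]; exact sup_le m6 m5

end Cfsg.Agent.LSG
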