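import Cfsg.Agent.LSG.D4
import Cfsg.Agent.LSD.Main

/-!
The triality groups are generated by two elements: transfer.
-/

set_option autoImplicit false

namespace Cfsg.Agent.LSG

open Cfsg.Lie Cfsg.Agent.ChevGrp Cfsg.Agent.ChevGrp.DData Cfsg.Agent.Tw3 Cfsg.Agent.LSD

/-- transfer of two generators -/
theorem two_gen_of {G G' : Type*} [Group G] [Group G'] {T : Subgroup G} (e : ↥T ≃* G') {a b : G} (ha : a ∈ T) (hb : b ∈ T)
    (h : T ≤ Subgroup.closure {a, b}) : ∃ x y : G', Subgroup.closure ({x, y} : Set G') = ⊤ := by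
  refine ⟨e ⟨a, ha⟩, e ⟨b, hb⟩, ?_⟩
  have h1 : Subgroup.closure ({⟨a, ha⟩, ⟨b, hb⟩} : Set ↥T) = ⊤ := by
    rw [eq_top_iff]
    intro x _
    have h2 : (x : G) ∈ (Subgroup.closure ({⟨a, ha⟩, ⟨b, hb⟩} : Set ↥T)).map T.subtype := by
      rw [MonoidHom.map_closure]
      have h3 : T.subtype '' {⟨a, ha⟩, ⟨b, hb⟩} = {a, b} := by
        rw [Set.image_pair]; rfl
      rw [h3]
      exact h x.2
    obtain ⟨y, hy, hyx⟩ := h2
    have : y = x := Subtype.ext hyx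
    rw [← this]; exact hy
  have h2 : Subgroup.closure ({e ⟨a, ha⟩, e ⟨b, hb⟩} : Set G') =
      (Subgroup.closure ({⟨a, ha⟩, ⟨b, hb⟩} : Set ↥T)).map e.toMonoidHom := by
    rw [MonoidHom.map_closure]
    congr 1
    rw [Set.image_pair]; rfl
  rw [h2, h1]
  exact Subgroup.map_top_of_surjective _ e.surjective

theorem two_gen_D4 {K : Type*} [Field K] [Fintype K] {q : ℕ} (hq : IsPrimePow q) (hK : Fintype.card K = q ^ 3) :
    ∃ a b : ↥(twistedD4 K q), Subgroup.closure ({a, b} : Set ↥(twistedD4 K q)) = ⊤ := by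
  obtain ⟨φ, hφ, h3⟩ := frob3 hq hK
  have hG := hG_D4 φ hφ h3
  obtain ⟨a, ha, b, hb, h⟩ := gens φ hq hK hφ h3
  exact two_gen_of ((MulEquiv.subgroupCongr hG).trans (Subgroup.subgroupOfEquivOfLe hle_D4)) ha hb h

end Cfsg.Agent.LSG
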