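import Cfsg.Agent.LSG.Move
import Cfsg.Agent.ChevTw.RowsE6
import Cfsg.Agent.ChevTw.TorE6
import Cfsg.Agent.Tw3.AmbInst

/-!
The twisted groups of type E6 are generated by two elements.
-/

set_option autoImplicit false
set_option maxRecDepth 100000
set_option linter.unusedSectionVars false
set_option linter.unusedSimpArgs false

namespace Cfsg.Agent.LSG

open Cfsg.Lie Cfsg.Agent.Chev Cfsg.Agent.ChevGrp Cfsg.Agent.ChevWeyl Cfsg.Agent.ChevTw

variable {K : Type*} [Field K] {H : Good chevE6} {E : DData chevE6} (E' : DData chevF4) (I : RInst H E K)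
  (φ : K ≃+* K) (hφφ : ∀ t, φ (φ t) = t) {q : ℕ} (hφ : ∀ t : K, φ t = t ^ q)

/-- the elements of a simple short root subgroup -/
noncomputable def xb (H : Good chevE6) (φ : K ≃+* K) (t : K) : ↥(chevE6.group K) :=
  xG H.toGood2 e6p3 t * xG H.toGood2 e6p5 (φ t)

theorem ncomm (t u : K) : xG H.toGood2 e6p3 t * xG H.toGood2 e6p5 u = xG H.toGood2 e6p5 u * xG H.toGood2 e6p3 t :=
  comm_pair (H := H) (by decide) (by decide) (by decide) (by decide +kernel) comm_E6_1 t u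

theorem xb_add (s t : K) : xb H φ (s + t) = xb H φ s * xb H φ t := by
  unfold xb
  rw [xG_add H.toGood2 (D := chevE6) (r := e6p3) (by decide), map_add,
    xG_add H.toGood2 (D := chevE6) (r := e6p5) (by decide)]
  calc xG H.toGood2 e6p3 s * xG H.toGood2 e6p3 t * (xG H.toGood2 e6p5 (φ s) * xG H.toGood2 e6p5 (φ t))
      = xG H.toGood2 e6p3 s * (xG H.toGood2 e6p3 t * xG H.toGood2 e6p5 (φ s)) * xG H.toGood2 e6p5 (φ t) := by
        simp only [mul_assoc]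
    _ = _ := by rw [ncomm (H := H)]; simp only [mul_assoc]

theorem xb_zero : xb H φ 0 = 1 := by
  unfold xb; rw [map_zero, xG_zero, xG_zero, one_mul]

theorem mem27 {x : ↥(chevE6.group K)} (hφφ : ∀ t, φ (φ t) = t) (hφ : ∀ t : K, φ t = t ^ q) :
    x ∈ (twE6 E' I φ hφφ hφ).X' (E'.rp.wsys.p ⟨1, by decide⟩) ↔ ∃ t, x = xb H φ t := by
  have h := YJ_iff E' I φ hφφ (⟨1, by decide⟩ : Fin chevF4.rank) x
  exact h

theorem tors {g : ↥(chevE6.group K)} (hφφ : ∀ t, φ (φ t) = t) (hφ : ∀ t : K, φ t = t ^ q) (hg : g ∈ I.R.H)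
    (hg1 : g ∈ (twE6 E' I φ hφφ hφ).G1) : ∃ μ : K, μ ≠ 0 ∧ (∀ t, g * xG H.toGood2 e6p3 t * g⁻¹ = xG H.toGood2 e6p3 (μ * t)) ∧
      ∀ t, g * xb H φ t * g⁻¹ = xb H φ (μ * t) := by
  rw [I.H_eq] at hg
  obtain ⟨χ, hχ⟩ := exists_chi H hg
  have h1 : ∀ {r : ℕ} (_ : r < 72) (t : K), g * xG H.toGood2 r t * g⁻¹ = xG H.toGood2 r (chr chevE6 χ r * t) := by
    intro r hr t
    rw [h_mul_xG H (D := chevE6) hχ hr]; group
  obtain ⟨a1, a2, a3, a4, a5, a6, -⟩ := cc_E6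
  refine ⟨chr chevE6 χ e6p3, Units.ne_zero _, fun t => h1 (by decide) t, fun t => ?_⟩
  have hx : xb H φ t ∈ (twE6 E' I φ hφφ hφ).X' (E'.rp.wsys.p ⟨1, by decide⟩) := (mem27 E' I φ hφφ hφ).2 ⟨t, rfl⟩
  have hgH : g ∈ (twE6 E' I φ hφφ hφ).tw.H := by
    rw [TwData.tw_H]
    exact ⟨by rw [I.H_eq]; exact hg, hg1⟩
  obtain ⟨s, hs⟩ := (mem27 E' I φ hφφ hφ).1 ((twE6 E' I φ hφφ hφ).tw.H_X g hgH _ _ hx)
  have e1 : g * xb H φ t * g⁻¹ = xG H.toGood2 e6p3 (chr chevE6 χ e6p3 * t) * xG H.toGood2 e6p5 (chr chevE6 χ e6p5 * φ t) := by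
    rw [← h1 (by decide), ← h1 (by decide)]; unfold xb; group
  have e2 := two_unique H (D := chevE6) (r := e6p3) (r' := e6p5) (by decide) (by decide) (by decide) (i := 2) (by decide)
    (Or.inl a3) (i' := 4) (by decide) (Or.inl a5) (hs.symm.trans e1)
  rw [hs, e2.1]

theorem btab : jwE6 0 (jwE6 1 (jwE6 2 (jwE6 3 56))) = e6p3 ∧ chevE6.cartan 2 56 = -1 ∧ chevE6.cartan 4 56 = 0 ∧
    chevE6.cartan 2 e6p3 = 2 ∧ chevE6.cartan 4 e6p3 = 0 := by decide +kernel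

/-- the word -/
def LL : List (Fin chevF4.rank) := [⟨0, by decide⟩, ⟨1, by decide⟩, ⟨2, by decide⟩, ⟨3, by decide⟩]

/-- the action of a word on indices -/
def wdn (L : List (Fin chevF4.rank)) (r : ℕ) : ℕ := L.foldr (fun j r => chevF4.reflectRoot j r) r

omit [Field K] in
theorem wd_val (L : List (Fin chevF4.rank)) (A : Fin chevF4.nroots) : ((E'.rp.wsys.wd L A : Fin _) : ℕ) = wdn L A := by
  induction L with
  | nil => rfl
  | cons j L ih =>
    rw [WSys.wd_cons, Equiv.Perm.mul_apply]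
    have h1 : ((E'.rp.wsys.w j (E'.rp.wsys.wd L A) : Fin _) : ℕ) = chevF4.reflectRoot j (E'.rp.wsys.wd L A : Fin _) := E'.hw j _
    rw [h1, ih]; rfl

/-- indices -/
def iF (A : ℕ) (h : A < 48 := by decide) : Fin chevF4.nroots := ⟨A, h⟩

theorem otab : wdn LL 27 = 35 ∧ wdn LL 35 = 38 ∧ wdn LL 38 = 28 ∧ wdn LL 28 = 36 ∧ wdn LL 36 = 14 ∧ wdn LL 14 = 20 ∧
    wdn LL 33 = 27 := by decide +kernel

theorem otab2 : wdn [⟨1, by decide⟩] 30 = 25 ∧ wdn [⟨2, by decide⟩, ⟨3, by decide⟩] 25 = 24 ∧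
    wdn [⟨2, by decide⟩, ⟨3, by decide⟩] 31 = 30 ∧ wdn [⟨1, by decide⟩] 31 = 26 ∧
    wdn [⟨2, by decide⟩, ⟨3, by decide⟩] 26 = 22 ∧ wdn [⟨2, by decide⟩, ⟨3, by decide⟩] 23 = 26 := by decide +kernel

theorem stab : chevF4.simple 0 = 33 ∧ chevF4.simple 1 = 27 ∧ chevF4.simple 2 = 25 ∧ chevF4.simple 3 = 24 ∧
    chevF4.neg 33 = 14 ∧ chevF4.neg 27 = 20 ∧ chevF4.neg 25 = 22 ∧ chevF4.neg 24 = 23 := by decide +kernel

theorem ktab : chevE6.commTerms e6p3 40 = [(44, -1, 1, 1)] ∧ chevE6.commTerms e6p5 43 = [(44, 1, 1, 1)] ∧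
    (chevE6.commTerms e6p5 40 = [] ∧ chevE6.commTerms e6p3 43 = [] ∧ chevE6.commTerms 44 e6p3 = [] ∧
      chevE6.commTerms 44 e6p5 = [] ∧ chevE6.commTerms 44 40 = [] ∧ chevE6.commTerms 44 43 = [] ∧
      chevE6.commTerms 40 43 = []) ∧ cE6 40 = 28 ∧ cE6 43 = 28 ∧ cE6 44 = 30 := by decide +kernel

theorem ktab2 : wv gpE6_1 40 = 43 ∧ wb gpE6_1 40 = 1 ∧ wv gpE6_1 43 = 40 ∧ wb gpE6_1 43 = 1 ∧ wv gpE6_1 44 = 44 ∧
    wb gpE6_1 44 = 0 ∧ cc chevE6 44 2 = 1 := by decide +kernel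

theorem cE6_30 : ∀ r < 72, (cE6 r = 30 ↔ r = 44) := by decide +kernel

theorem tr_surj2 [Fintype K] (hq : 1 < q) (hK : Fintype.card K = q ^ 2) (hφφ : ∀ t, φ (φ t) = t)
    (hφ : ∀ t : K, φ t = t ^ q) {c : K} (hc : φ c = c) : ∃ t, t + φ t = c := by
  have hne : ∃ t : K, t + φ t ≠ 0 := by
    by_contra hcon
    push Not at hcon
    have h1 := card_fixed (K := K) hq two_ne_zero hK
    have h2 : ∀ t : K, φ t = t := by
      intro t
      have e1 := hcon 1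
      rw [map_one] at e1
      have e2 := hcon t
      have e3 : φ t = -t := by linear_combination e2
      have e4 : -t = t := by linear_combination -(t * e1)
      rw [e3, e4]
    have h3 : Nat.card {t : K // t ^ q = t} = q ^ 2 := by
      rw [← hK, ← Nat.card_eq_fintype_card]
      exact Nat.card_congr (Equiv.subtypeUnivEquiv fun t => by rw [← hφ]; exact h2 t)
    rw [h1] at h3
    have : q ^ 1 < q ^ 2 := Nat.pow_lt_pow_right hq (by norm_num)
    rw [pow_one] at this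
    omega
  obtain ⟨t0, ht0⟩ := hne
  have hfx : φ (t0 + φ t0) = t0 + φ t0 := by rw [map_add, hφφ]; ring
  refine ⟨c * (t0 + φ t0)⁻¹ * t0, ?_⟩
  rw [map_mul, map_mul, map_inv₀, hc, hfx, ← mul_add, mul_assoc, inv_mul_cancel₀ ht0, mul_one]

theorem gensE6 [Fintype K] (hq : 1 < q) (hK : Fintype.card K = q ^ 2) (hφφ : ∀ t, φ (φ t) = t)
    (hφ : ∀ t : K, φ t = t ^ q) :
    ∃ a ∈ (twE6 E' I φ hφφ hφ).G1, ∃ b ∈ (twE6 E' I φ hφφ hφ).G1,
      (twE6 E' I φ hφφ hφ).G1 ≤ Subgroup.closure {a, b} := by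
  classical
  obtain ⟨T, hT⟩ : ∃ T, T = twE6 E' I φ hφφ hφ := ⟨_, rfl⟩
  obtain ⟨s1, s2, s3, s4, s5, s6, n1, n2, n3, n4, n5, n6⟩ := simple_E6
  obtain ⟨a1, a2, a3, a4, a5, a6, -⟩ := cc_E6
  obtain ⟨t1, t2, t3, t4, t5⟩ := btab
  obtain ⟨ζ, hζ⟩ := IsCyclic.exists_generator (α := Kˣ)
  have hord : orderOf ζ = q ^ 2 - 1 := by
    rw [orderOf_eq_card_of_forall_mem_zpowers hζ, Nat.card_eq_fintype_card, Fintype.card_units, hK]
  have hq4 : 2 ^ 2 ≤ q ^ 2 := Nat.pow_le_pow_left hq 2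
  have hpow : ∀ m : ℕ, m ≠ 0 → m < q ^ 2 - 1 → ζ ^ m ≠ 1 := by
    intro m hm hlt h
    have := Nat.le_of_dvd (Nat.pos_of_ne_zero hm) (orderOf_dvd_of_pow_eq_one h)
    omega
  have hφζ : φ (ζ : K) ≠ 0 := (map_ne_zero φ).2 ζ.ne_zero
  obtain ⟨h, hh⟩ : ∃ h, h = hG H.toGood2 e6p3 (ζ : K) * hG H.toGood2 e6p5 (φ ζ) := ⟨_, rfl⟩
  have hhR : h ∈ I.R.H := by
    rw [hh]
    exact mul_mem (hG_mem_H I (by decide) ζ.ne_zero) (hG_mem_H I (by decide) hφζ)
  have hhT : h ∈ TJ H φ 1 := ⟨ζ, hh⟩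
  have hhtw : h ∈ (twE6 E' I φ hφφ hφ).tw.H := by
    rw [TwData.tw_H]
    have h1 : TJ H φ ((⟨1, by decide⟩ : Fin chevF4.rank) : ℕ) ≤ ⨆ j : Fin chevF4.rank, TJ H φ j :=
      le_iSup (fun j : Fin chevF4.rank => TJ H φ j) (⟨1, by decide⟩ : Fin chevF4.rank)
    rw [← H_E6 E' I φ hφφ hφ] at h1
    exact h1 hhT
  have hhG : h ∈ (twE6 E' I φ hφφ hφ).G1 := by rw [TwData.tw_H] at hhtw; exact hhtw.2
  -- the action of `h`
  have hact : ∀ {s : ℕ} (_ : s < 72) (t : K), h * xG H.toGood2 s t * h⁻¹ =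
      xG H.toGood2 s ((ζ : K) ^ chevE6.cartan 2 s * ((φ ζ) ^ chevE6.cartan 4 s * t)) := by
    intro s hs t
    have e1 := Tw3.hG_conj H (D := chevE6) (r := e6p5) (by decide) hφζ (s := s) hs t
    have e2 := Tw3.hG_conj H (D := chevE6) (r := e6p3) (by decide) ζ.ne_zero (s := s) hs ((φ ζ) ^ chevE6.cartan 4 s * t)
    rw [← s5, pr_simple H.toGood1 (show 4 < chevE6.rank by decide), s5] at e1
    rw [← s3, pr_simple H.toGood1 (show 2 < chevE6.rank by decide), s3] at e2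
    rw [← e2, ← e1, hh]; group
  have hact3 : ∀ t : K, h * xG H.toGood2 e6p3 t * h⁻¹ = xG H.toGood2 e6p3 ((ζ : K) ^ 2 * t) := by
    intro t
    rw [hact (by decide), t4, t5, zpow_zero, one_mul]
    norm_cast
  have hact56 : ∀ t : K, h * xG H.toGood2 56 t * h⁻¹ = xG H.toGood2 56 ((ζ : K)⁻¹ * t) := by
    intro t
    rw [hact (by decide), t2, t3, zpow_zero, one_mul, zpow_neg_one]
  have hinj3 : ∀ t u : K, xG H.toGood2 e6p3 t = xG H.toGood2 e6p3 u → t = u := by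
    intro t u htu
    have : xG H.toGood2 e6p3 (t - u) = 1 := by
      rw [sub_eq_add_neg, xG_add H.toGood2 (D := chevE6) (r := e6p3) (by decide), htu,
        ← xG_add H.toGood2 (D := chevE6) (r := e6p3) (by decide), add_neg_cancel, xG_zero]
    exact sub_eq_zero.1 (xG_eq_one H (D := chevE6) (by decide) (i := 2) (by decide) (Or.inl a3) this)
  -- the element `n`
  obtain ⟨n, hn⟩ : ∃ n, n = (LL.map (twE6 E' I φ hφφ hφ).nj).prod := ⟨_, rfl⟩
  obtain ⟨u, hu1, hu2, hu3, hu4⟩ := TwData.lift_word (T := twE6 E' I φ hφφ hφ) LL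
  rw [← hn] at hu2 hu3 hu4
  have hnN : n ∈ (twE6 E' I φ hφφ hφ).tw.N := by
    rw [TwData.tw_N]; exact ⟨hu3, hu4⟩
  have hn56 : ∃ d : K, d ≠ 0 ∧ n * xG H.toGood2 56 1 * n⁻¹ = xG H.toGood2 e6p3 d := by
    have e0 : n = njE6 I ⟨0, by decide⟩ * (njE6 I ⟨1, by decide⟩ * (njE6 I ⟨2, by decide⟩ * (njE6 I ⟨3, by decide⟩ * 1))) := by
      rw [hn]; rfl
    have hu' : I.R.Act n (jwPE6 E ⟨0, by decide⟩ * (jwPE6 E ⟨1, by decide⟩ * (jwPE6 E ⟨2, by decide⟩ * (jwPE6 E ⟨3, by decide⟩ * 1)))) := by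
      rw [e0]
      exact (act_njE6 I _).mul ((act_njE6 I _).mul ((act_njE6 I _).mul ((act_njE6 I _).mul RGrp.act_one)))
    have hx : xG H.toGood2 56 (1 : K) ∈ I.R.X (⟨56, by decide⟩ : Fin chevE6.nroots) := (I.mem_X _ _).2 ⟨1, rfl⟩
    have h1 := hu'.conj hx
    have h2 : (jwPE6 E ⟨0, by decide⟩ * (jwPE6 E ⟨1, by decide⟩ * (jwPE6 E ⟨2, by decide⟩ * (jwPE6 E ⟨3, by decide⟩ * 1))))
        (⟨56, by decide⟩ : Fin chevE6.nroots) = (⟨e6p3, by decide⟩ : Fin chevE6.nroots) := by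
      apply Fin.ext
      rw [Equiv.Perm.mul_apply, jwPE6_val, Equiv.Perm.mul_apply, jwPE6_val, Equiv.Perm.mul_apply, jwPE6_val,
        mul_one, jwPE6_val]
      exact t1
    rw [h2, I.mem_X] at h1
    obtain ⟨d, hd⟩ := h1
    have hd' : n * xG H.toGood2 56 1 * n⁻¹ = xG H.toGood2 e6p3 d := hd
    refine ⟨d, ?_, hd'⟩
    rintro rfl
    rw [xG_zero] at hd'
    have : xG H.toGood2 56 (1 : K) = 1 := by
      have e : xG H.toGood2 56 (1 : K) = n⁻¹ * (n * xG H.toGood2 56 1 * n⁻¹) * n := by group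
      rw [e, hd']; group
    exact one_ne_zero (xG_eq_one H (D := chevE6) (r := 56) (by decide) (i := 0) (by decide) (Or.inl a1) this)
  obtain ⟨h', hh'⟩ : ∃ h', h' = n * h * n⁻¹ := ⟨_, rfl⟩
  have hh'H : h' ∈ (twE6 E' I φ hφφ hφ).tw.H := by rw [hh']; exact RGrp.N_conj_H hnN hhtw
  have hh'' : h' ∈ I.R.H ∧ h' ∈ (twE6 E' I φ hφφ hφ).G1 := by rw [TwData.tw_H] at hh'H; exact hh'H
  obtain ⟨χ, hχ0, hχ1, hχ2⟩ := tors E' I φ hφφ hφ hhR hhG
  obtain ⟨μ, hμ0, hμ1, hμ2⟩ := tors E' I φ hφφ hφ hh''.1 hh''.2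
  have hχ : χ = (ζ : K) ^ 2 := by
    have := hinj3 _ _ ((hχ1 1).symm.trans (hact3 1))
    rwa [mul_one, mul_one] at this
  have hχne : χ ≠ 1 := by
    rw [hχ]
    intro h1
    exact hpow 2 (by norm_num) (by omega) (Units.ext (by rw [Units.val_pow_eq_pow_val, h1, Units.val_one]))
  have hμ : μ ≠ 1 := by
    rintro rfl
    obtain ⟨d, hd0, hd⟩ := hn56
    have e2 := hμ1 d
    rw [one_mul, ← hd, hh'] at e2
    have e3 : h * xG H.toGood2 56 1 * h⁻¹ = xG H.toGood2 56 1 := by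
      have : h * xG H.toGood2 56 1 * h⁻¹ = n⁻¹ * (n * h * n⁻¹ * (n * xG H.toGood2 56 1 * n⁻¹) * (n * h * n⁻¹)⁻¹) * n := by
        group
      rw [this, e2]; group
    rw [hact56] at e3
    have e4 : xG H.toGood2 56 ((ζ : K)⁻¹ * 1 - 1) = 1 := by
      rw [sub_eq_add_neg, xG_add H.toGood2 (D := chevE6) (r := 56) (by decide), e3,
        ← xG_add H.toGood2 (D := chevE6) (r := 56) (by decide), add_neg_cancel, xG_zero]
    have e5 := sub_eq_zero.1 (xG_eq_one H (D := chevE6) (r := 56) (by decide) (i := 0) (by decide) (Or.inl a1) e4)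
    rw [mul_one, inv_eq_one] at e5
    exact hpow 1 (by norm_num) (by omega) (Units.ext (by rw [pow_one, e5, Units.val_one]))
  have hxb1 : xb H φ 1 ∈ (twE6 E' I φ hφφ hφ).G1 := TwData.X'_le_G1 _ ((mem27 E' I φ hφφ hφ).2 ⟨1, rfl⟩)
  refine ⟨h, hhG, xb H φ 1 * n, mul_mem hxb1 hu4, ?_⟩
  obtain ⟨Q, hQ⟩ : ∃ Q, Q = Subgroup.closure {h, xb H φ 1 * n} := ⟨_, rfl⟩
  rw [← hQ]
  have hhQ : h ∈ Q := by rw [hQ]; exact Subgroup.subset_closure (by simp)
  have hbQ : xb H φ 1 * n ∈ Q := by rw [hQ]; exact Subgroup.subset_closure (by simp)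
  have hcomm : h * h' = h' * h := by
    have e : (Tw3.amb H E K).R.H = I.R.H := by rw [I.H_eq]; exact chevG_H _ _
    exact (Tw3.amb H E K).H_comm (by rw [e]; exact hhR) (by rw [e]; exact hh''.1)
  have hv := comm_calc (x := xb H φ) (xb_add φ) hχ2 hh' hμ2 hcomm hhQ hbQ
  have hall : ∀ x, xb H φ x ∈ Q := by
    intro x
    refine add_full' (A := {t | xb H φ t ∈ Q}) (fun s hs t ht => ?_) ?_ hζ (fun t ht => ?_) hv
      (mul_ne_zero (sub_ne_zero.2 hχne) (sub_ne_zero.2 (Ne.symm hμ))) x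
    · change xb H φ (s + t) ∈ Q
      rw [xb_add]; exact mul_mem hs ht
    · change xb H φ 0 ∈ Q
      rw [xb_zero]; exact one_mem _
    · change xb H φ ((ζ : K) ^ 2 * t) ∈ Q
      have : xb H φ ((ζ : K) ^ 2 * t) = h * xb H φ t * h⁻¹ := by rw [hχ2, hχ]
      rw [this]
      exact mul_mem (mul_mem hhQ ht) (inv_mem hhQ)
  have hnQ : (LL.map (twE6 E' I φ hφφ hφ).nj).prod ∈ Q := by
    rw [← hn]
    have : n = (xb H φ 1)⁻¹ * (xb H φ 1 * n) := by group
    rw [this]; exact mul_mem (inv_mem (hall 1)) hbQ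
  -- moving
  obtain ⟨o1, o2, o3, o4, o5, o6, o7⟩ := otab
  obtain ⟨z0, z1, z2, z3, m0, m1, m2, m3⟩ := stab
  have hp : ∀ (j : Fin chevF4.rank) (A : ℕ) (hA : A < 48), chevF4.simple j = A → E'.rp.wsys.p j = iF A hA :=
    fun j A hA h => Fin.ext ((pF4_val E' j).trans h)
  have hnp : ∀ (j : Fin chevF4.rank) (A B : ℕ) (hB : B < 48), chevF4.simple j = A → chevF4.neg A = B →
      E'.rp.wsys.neg (E'.rp.wsys.p j) = iF B hB := by
    intro j A B hB h1 h2
    apply Fin.ext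
    rw [negF4_val, pF4_val, h1, h2]; rfl
  have mv : ∀ (L : List (Fin chevF4.rank)) (_ : (L.map (twE6 E' I φ hφφ hφ).nj).prod ∈ Q) (A B : ℕ) (hA : A < 48)
      (hB : B < 48), (wdn L A = B ∨ wdn L B = A) → (twE6 E' I φ hφφ hφ).X' (iF A hA) ≤ Q →
      (twE6 E' I φ hφφ hφ).X' (iF B hB) ≤ Q := by
    intro L hL A B hA hB h1 h2
    refine moveW (twE6 E' I φ hφφ hφ) L hL ?_ h2
    rcases h1 with h1 | h1
    · left; apply Fin.ext; rw [wd_val]; exact h1
    · right; apply Fin.ext; rw [wd_val]; exact h1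
  have m27 : (twE6 E' I φ hφφ hφ).X' (iF 27) ≤ Q := by
    intro x hx
    rw [← hp ⟨1, by decide⟩ 27 (by decide) z1] at hx
    obtain ⟨t, rfl⟩ := (mem27 E' I φ hφφ hφ).1 hx
    exact hall t
  have m35 := mv LL hnQ 27 35 (by decide) (by decide) (Or.inl o1) m27
  have m38 := mv LL hnQ 35 38 (by decide) (by decide) (Or.inl o2) m35
  have m28 := mv LL hnQ 38 28 (by decide) (by decide) (Or.inl o3) m38
  have m36 := mv LL hnQ 28 36 (by decide) (by decide) (Or.inl o4) m28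
  have m14 := mv LL hnQ 36 14 (by decide) (by decide) (Or.inl o5) m36
  have m20 := mv LL hnQ 14 20 (by decide) (by decide) (Or.inl o6) m14
  have m33 := mv LL hnQ 27 33 (by decide) (by decide) (Or.inr o7) m27
  have hj0 : (twE6 E' I φ hφφ hφ).nj ⟨0, by decide⟩ ∈ Q := by
    apply nj_mem_of
    · rw [hp ⟨0, by decide⟩ 33 (by decide) z0]; exact m33
    · rw [hnp ⟨0, by decide⟩ 33 14 (by decide) z0 m0]; exact m14
  have hj1 : (twE6 E' I φ hφφ hφ).nj ⟨1, by decide⟩ ∈ Q := by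
    apply nj_mem_of
    · rw [hp ⟨1, by decide⟩ 27 (by decide) z1]; exact m27
    · rw [hnp ⟨1, by decide⟩ 27 20 (by decide) z1 m1]; exact m20
  have hj23 : (([⟨2, by decide⟩, ⟨3, by decide⟩] : List (Fin chevF4.rank)).map (twE6 E' I φ hφφ hφ).nj).prod ∈ Q := by
    have e : (([⟨2, by decide⟩, ⟨3, by decide⟩] : List (Fin chevF4.rank)).map (twE6 E' I φ hφφ hφ).nj).prod =
        ((twE6 E' I φ hφφ hφ).nj ⟨1, by decide⟩)⁻¹ * (((twE6 E' I φ hφφ hφ).nj ⟨0, by decide⟩)⁻¹ *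
          (LL.map (twE6 E' I φ hφφ hφ).nj).prod) := by
      unfold LL
      simp only [List.map_cons, List.map_nil, List.prod_cons, List.prod_nil]
      group
    rw [e]
    exact mul_mem (inv_mem hj1) (mul_mem (inv_mem hj0) hnQ)
  have hj1' : (([⟨1, by decide⟩] : List (Fin chevF4.rank)).map (twE6 E' I φ hφφ hφ).nj).prod ∈ Q := by
    simpa using hj1
  -- a long root subgroup
  have m30 : (twE6 E' I φ hφφ hφ).X' (iF 30) ≤ Q := by
    obtain ⟨k1, k2, ⟨k3, k4, k5, k6, k7, k8, k9⟩, k10, k11, k12⟩ := ktab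
    obtain ⟨l1, l2, l3, l4, l5, l6, l7⟩ := ktab2
    intro x hx
    obtain ⟨c, hc, rfl⟩ := (Y1_iff I φ (r := 44) (by decide) (i := 2) (by decide) (Or.inl l7) l5 l6
      (P := fun r => clsE6 r = iF 30) (fun a => by rw [Fin.ext_iff]; exact cE6_30 a a.2) x).1 hx
    obtain ⟨t, ht⟩ := tr_surj2 φ hq hK hφφ hφ hc
    have cm : ∀ {r s : ℕ} (_ : r < 72) (_ : s < 72) (_ : s ≠ r) (_ : s ≠ chevE6.neg r) (_ : chevE6.commTerms r s = [])
        (t u : K), xG H.toGood2 r t * xG H.toGood2 s u = xG H.toGood2 s u * xG H.toGood2 r t :=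
      fun h1 h2 h3 h4 h5 t u => comm_pair (H := H) h1 h2 h3 h4 h5 t u
    have hb : xG H.toGood2 40 (1 : K) * xG H.toGood2 43 (-1) ∈ (twE6 E' I φ hφφ hφ).X' (iF 28) := by
      refine ⟨mul_mem (mem_gen (P := fun r => clsE6 r = iF 28) (r := (⟨40, by decide⟩ : Fin chevE6.nroots)) (Fin.ext k10)
        ((I.mem_X _ _).2 ⟨1, rfl⟩)) (mem_gen (P := fun r => clsE6 r = iF 28) (r := (⟨43, by decide⟩ : Fin chevE6.nroots))
        (Fin.ext k11) ((I.mem_X _ _).2 ⟨-1, rfl⟩)), ?_⟩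
      change sE6 H φ (xG H.toGood2 40 (1 : K) * xG H.toGood2 43 (-1)) = xG H.toGood2 40 (1 : K) * xG H.toGood2 43 (-1)
      rw [map_mul, sE6_x' φ 40 43 (by decide) l1 l2, sE6_x' φ 43 40 (by decide) l3 l4, map_neg, map_one, _root_.neg_neg]
      exact (cm (r := 40) (s := 43) (by decide) (by decide) (by decide) (by decide +kernel) k9 1 (-1)).symm
    have hb' := m28 hb
    have ha := hall t
    have e1 := xG_comm_one (K := K) H (D := chevE6) (r := e6p3) (s := 40) (v := 44) (by decide) (by decide) (by decide)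
      (by decide +kernel) k1 t 1
    have e2 := xG_comm_one (K := K) H (D := chevE6) (r := e6p5) (s := 43) (v := 44) (by decide) (by decide) (by decide)
      (by decide +kernel) k2 (φ t) (-1)
    rw [show ((-1 : ℤ) : K) * (-t) * 1 = t by push_cast; ring] at e1
    rw [show ((1 : ℤ) : K) * (-φ t) * (-1) = φ t by push_cast; ring] at e2
    have q1 := cm (r := e6p5) (s := 40) (by decide) (by decide) (by decide) (by decide +kernel) k3 (φ t) 1
    have q2 := cm (r := e6p3) (s := 43) (by decide) (by decide) (by decide) (by decide +kernel) k4 t (-1)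
    have q3 := cm (r := 44) (s := e6p5) (by decide) (by decide) (by decide) (by decide +kernel) k6 t (φ t)
    have q4 := cm (r := 44) (s := 43) (by decide) (by decide) (by decide) (by decide +kernel) k8 t (-1)
    have key : (xG H.toGood2 40 (1 : K) * xG H.toGood2 43 (-1)) * xb H φ t =
        xb H φ t * (xG H.toGood2 40 (1 : K) * xG H.toGood2 43 (-1)) * xG H.toGood2 44 c := by
      unfold xb
      rw [← ht, xG_add H.toGood2 (D := chevE6) (r := 44) (by decide)]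
      set A := xG H.toGood2 e6p3 t
      set B := xG H.toGood2 e6p5 (φ t)
      set C := xG H.toGood2 40 (1 : K)
      set D := xG H.toGood2 43 (-1 : K)
      set P := xG H.toGood2 44 t
      set P' := xG H.toGood2 44 (φ t)
      calc C * D * (A * B) = C * (D * A) * B := by group
        _ = (C * A) * (D * B) := by rw [← q2]; group
        _ = (A * C * P) * (B * D * P') := by rw [e1, e2]
        _ = A * C * (P * B) * D * P' := by group
        _ = A * (C * B) * (P * D) * P' := by rw [q3]; group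
        _ = _ := by rw [← q1, q4]; group
    have e3 : xG H.toGood2 44 c = (xb H φ t * (xG H.toGood2 40 (1 : K) * xG H.toGood2 43 (-1)))⁻¹ *
        ((xG H.toGood2 40 (1 : K) * xG H.toGood2 43 (-1)) * xb H φ t) := by rw [key]; group
    rw [e3]
    exact mul_mem (inv_mem (mul_mem ha hb')) (mul_mem hb' ha)
  obtain ⟨p1, p2, p3, p4, p5, p6⟩ := otab2
  have m25 := mv _ hj1' 30 25 (by decide) (by decide) (Or.inl p1) m30
  have m24 := mv _ hj23 25 24 (by decide) (by decide) (Or.inl p2) m25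
  have m31 := mv _ hj23 30 31 (by decide) (by decide) (Or.inr p3) m30
  have m26 := mv _ hj1' 31 26 (by decide) (by decide) (Or.inl p4) m31
  have m22 := mv _ hj23 26 22 (by decide) (by decide) (Or.inl p5) m26
  have m23 := mv _ hj23 26 23 (by decide) (by decide) (Or.inr p6) m26
  rw [(twE6 E' I φ hφφ hφ).G1_eq']
  refine iSup_le fun j => ?_
  have hj := j.2
  obtain ⟨j, hj0'⟩ := j
  have hj' : j < 4 := hj
  interval_cases j
  · refine sup_le ?_ ?_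
    · rw [hp ⟨0, hj0'⟩ 33 (by decide) z0]; exact m33
    · rw [hnp ⟨0, hj0'⟩ 33 14 (by decide) z0 m0]; exact m14
  · refine sup_le ?_ ?_
    · rw [hp ⟨1, hj0'⟩ 27 (by decide) z1]; exact m27
    · rw [hnp ⟨1, hj0'⟩ 27 20 (by decide) z1 m1]; exact m20
  · refine sup_le ?_ ?_
    · rw [hp ⟨2, hj0'⟩ 25 (by decide) z2]; exact m25
    · rw [hnp ⟨2, hj0'⟩ 25 22 (by decide) z2 m2]; exact m22
  · refine sup_le ?_ ?_
    · rw [hp ⟨3, hj0'⟩ 24 (by decide) z3]; exact m24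
    · rw [hnp ⟨3, hj0'⟩ 24 23 (by decide) z3 m3]; exact m23

end Cfsg.Agent.LSG
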