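import Cfsg.Agent.LSG.E6
import Cfsg.Agent.LSG.D4Main

/-!
The twisted groups of type E6 are generated by two elements: transfer.
-/

set_option autoImplicit false

namespace Cfsg.Agent.LSG

open Cfsg.Lie Cfsg.Agent.Chev Cfsg.Agent.ChevGrp Cfsg.Agent.ChevTw

theorem two_gen_E6 {K : Type*} [Field K] [Fintype K] {q : ℕ} (hq : IsPrimePow q) (hK : Fintype.card K = q ^ 2) :
    ∃ a b : ↥(twistedE6 K q), Subgroup.closure ({a, b} : Set ↥(twistedE6 K q)) = ⊤ := by
  obtain ⟨φ, hφ, hφφ⟩ := setup2 hq hK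
  obtain ⟨a, ha, b, hb, h⟩ := gensE6 DData.dF4 (instE6 K) φ hq.one_lt hK hφφ hφ
  have hle : twistedE6 K q ≤ chevE6.group K := genSub_le goodE6.toGood2 _
  exact two_gen_of (T := (twistedE6 K q).subgroupOf (chevE6.group K)) (Subgroup.subgroupOfEquivOfLe hle) ha hb h

end Cfsg.Agent.LSG
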