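import Cfsg.Agent.Tw4.Tits
import Cfsg.Agent.LSG.Move

/-!
The large Ree groups of type F4 are generated by two elements.
-/

set_option autoImplicit false
set_option maxRecDepth 100000

namespace Cfsg.Agent.LSG

open Cfsg.Lie Cfsg.Agent.Chev Cfsg.Agent.ChevGrp Cfsg.Agent.ChevGrp.DData Cfsg.Agent.ChevWeyl Cfsg.Agent.ChevTw
  Cfsg.Agent.Tw3 Cfsg.Agent.ChevGrp.RGrp Cfsg.Agent.Tw4

variable {K : Type*} [Field K] (Z : Sg K)

theorem fP_mul' (t u t' u' : K) : fP Z t u * fP Z t' u' = fP Z (t + t') (u + u' + Z.θ t * t') := by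
  have h2 := Z.two
  have h5 : ∀ x, Z.θ (Z.θ x) ^ 2 = x := Z.hθ
  unfold fP Quad.Fx
  rw [Quad.W_mul]
  congr 1
  · rw [map_add]
  · rw [map_add]
    linear_combination (-Z.θ t * t') * h2
  · rw [map_add, map_add, map_mul]
    have e : (Z.θ u + Z.θ u' + Z.θ (Z.θ t) * Z.θ t') ^ 2 =
        Z.θ u ^ 2 + Z.θ u' ^ 2 + Z.θ (Z.θ t) ^ 2 * Z.θ t' ^ 2 := by
      linear_combination (Z.θ u * Z.θ u' + Z.θ u * (Z.θ (Z.θ t) * Z.θ t') + Z.θ u' * (Z.θ (Z.θ t) * Z.θ t')) * h2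
    rw [e, h5]
    ring

theorem fP_zero : fP Z 0 0 = 1 := by
  unfold fP Quad.Fx
  rw [map_zero, mul_zero, zero_add, sq, mul_zero, Quad.W_zero]

include Z in
theorem self_add (t : K) : t + t = 0 := by linear_combination t * Z.two

theorem fP_inv (t u : K) : (fP Z t u)⁻¹ = fP Z t (u + Z.θ t * t) := by
  rw [inv_eq_iff_mul_eq_one, fP_mul', self_add Z, ← fP_zero Z]
  congr 1
  linear_combination (u + Z.θ t * t) * Z.two

theorem jtab : jwF4 0 (jwF4 1 27) < 48 ∧ jwF4 0 (jwF4 1 25) < 48 ∧ jwF4 0 (jwF4 1 28) < 48 ∧ jwF4 0 (jwF4 1 30) < 48 ∧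
    chevF4.cartan 0 (jwF4 0 (jwF4 1 25)) = 0 ∧ chevF4.cartan 3 (jwF4 0 (jwF4 1 25)) = -1 := by decide +kernel

theorem jtab2 : ∀ r < 48, jwF4 0 r < 48 ∧ jwF4 0 (jwF4 0 r) = r ∧ jwF4 1 r < 48 ∧ jwF4 1 (jwF4 1 r) = r := by
  decide +kernel

include Z in
theorem nd_conj (j : Fin 2) {r : ℕ} (hr : r < 48) (t : K) :
    (RF K).nd (LF j) * xF r t * ((RF K).nd (LF j))⁻¹ = xF (jwF4 j r) t := by
  have h := nd_x (K := K) (LF j) ⟨r, hr⟩ t Z.two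
  rw [wdF_val] at h
  rw [mul_inv_eq_iff_eq_mul]; exact h

include Z in
theorem nd_conj' (j : Fin 2) {r : ℕ} (hr : r < 48) (t : K) :
    ((RF K).nd (LF j))⁻¹ * xF r t * (RF K).nd (LF j) = xF (jwF4 j r) t := by
  obtain ⟨h1, h2, h3, h4⟩ := jtab2 r hr
  rcases Tw4.j_cases j with rfl | rfl
  · have h := nd_conj Z 0 h1 t
    have e : jwF4 ((0 : Fin 2) : ℕ) (jwF4 0 r) = r := h2
    rw [e] at h
    rw [← h]
    have : jwF4 ((0 : Fin 2) : ℕ) r = jwF4 0 r := rfl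
    rw [this]; group
  · have h := nd_conj Z 1 h3 t
    have e : jwF4 ((1 : Fin 2) : ℕ) (jwF4 1 r) = r := h4
    rw [e] at h
    rw [← h]
    have : jwF4 ((1 : Fin 2) : ℕ) r = jwF4 1 r := rfl
    rw [this]; group

/-- the rotation -/
noncomputable def nr (K : Type*) [Field K] : ↥(chevF4.group K) := (RF K).nd (LF 1) * (RF K).nd (LF 0)

theorem nr_hb0 (c : Kˣ) {r : ℕ} (hr : r < 48) (t : K) :
    (nr K * hb0 Z c * (nr K)⁻¹) * xF r t * (nr K * hb0 Z c * (nr K)⁻¹)⁻¹ = xF r ((ch0 Z c (jwF4 0 (jwF4 1 r)) : Kˣ) * t) := by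
  obtain ⟨h1, h2, h3, h4⟩ := jtab2 r hr
  obtain ⟨h5, h6, h7, h8⟩ := jtab2 _ h3
  have e1 : (nr K * hb0 Z c * (nr K)⁻¹) * xF r t * (nr K * hb0 Z c * (nr K)⁻¹)⁻¹ =
      (RF K).nd (LF 1) * ((RF K).nd (LF 0) * (hb0 Z c * (((RF K).nd (LF 0))⁻¹ * (((RF K).nd (LF 1))⁻¹ * xF r t *
        (RF K).nd (LF 1)) * (RF K).nd (LF 0)) * (hb0 Z c)⁻¹) * ((RF K).nd (LF 0))⁻¹) * ((RF K).nd (LF 1))⁻¹ := by
    unfold nr; group
  rw [e1, nd_conj' Z 1 hr]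
  have e2 : jwF4 ((1 : Fin 2) : ℕ) r = jwF4 1 r := rfl
  rw [e2, nd_conj' Z 0 h3]
  have e3 : jwF4 ((0 : Fin 2) : ℕ) (jwF4 1 r) = jwF4 0 (jwF4 1 r) := rfl
  rw [e3, hb0_x Z c h5, nd_conj Z 0 h5]
  have e4 : jwF4 ((0 : Fin 2) : ℕ) (jwF4 0 (jwF4 1 r)) = jwF4 1 r := h6
  rw [e4, nd_conj Z 1 h3]
  have e5 : jwF4 ((1 : Fin 2) : ℕ) (jwF4 1 r) = r := h4
  rw [e5]

theorem nr_mem : nr K ∈ (twF Z).G1 := mul_mem (nd_G1 Z 1) (nd_G1 Z 0)

theorem nr_fP (c : Kˣ) (t u : K) : ∃ u', (nr K * hb0 Z c * (nr K)⁻¹) * fP Z t u * (nr K * hb0 Z c * (nr K)⁻¹)⁻¹ =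
    fP Z ((c : K)⁻¹ * t) u' := by
  have hG : nr K * hb0 Z c * (nr K)⁻¹ ∈ (twF Z).G1 := mul_mem (mul_mem (nr_mem Z) (hb0_G1 Z c)) (inv_mem (nr_mem Z))
  have h1 : (nr K * hb0 Z c * (nr K)⁻¹) * fP Z t u * (nr K * hb0 Z c * (nr K)⁻¹)⁻¹ =
      (quadP Z.two).W (((ch0 Z c (jwF4 0 (jwF4 1 27)) : Kˣ) : K) * Z.θ t) (((ch0 Z c (jwF4 0 (jwF4 1 25)) : Kˣ) : K) * t)
        (((ch0 Z c (jwF4 0 (jwF4 1 28)) : Kˣ) : K) * (Z.θ t * t + u))
        (((ch0 Z c (jwF4 0 (jwF4 1 30)) : Kˣ) : K) * (Z.θ u ^ 2)) := by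
    unfold fP Quad.Fx
    rw [Quad.W_def, Quad.W_def, conj_mul2, conj_mul2, conj_mul2, nr_hb0 Z c (by norm_num), nr_hb0 Z c (by norm_num),
      nr_hb0 Z c (by norm_num), nr_hb0 Z c (by norm_num)]
  obtain ⟨t', u', h2⟩ := (mem_X1 Z ((nr K * hb0 Z c * (nr K)⁻¹) * fP Z t u * (nr K * hb0 Z c * (nr K)⁻¹)⁻¹)).1 (by
    refine ⟨?_, ?_⟩
    · rw [gen_iff cls1, mem_gen4 (quadP Z.two) (by norm_num) (by norm_num) (by norm_num) (by norm_num), h1]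
      exact ⟨_, _, _, _, rfl⟩
    · exact (twF Z).G1_le_Fx (mul_mem (mul_mem hG (fP_G1 Z t u)) (inv_mem hG)))
  refine ⟨u', ?_⟩
  rw [← h2]
  congr 1
  rw [h1] at h2
  obtain ⟨-, h3, -, -⟩ := (quadP Z.two).inj_of (WP_one Z.two) _ _ _ _ _ _ _ _ h2
  rw [h3]
  congr 1
  obtain ⟨-, -, -, -, a1, a2⟩ := jtab
  unfold ch0
  rw [a1, a2, zpow_zero, one_mul, zpow_neg, zpow_one, Units.val_inv_eq_inv_val]

include Z in
theorem sq_inj {x y : K} (h : x ^ 2 = y ^ 2) : x = y := by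
  have h1 : (x + y) ^ 2 = 0 := by linear_combination h + (x * y + y ^ 2) * Z.two
  have h2 : x + y = 0 := by simpa using h1
  linear_combination h2 - y * Z.two

theorem exists_norm (d : K) : ∃ t : K, Z.θ t * t = d := by
  by_cases hd : d = 0
  · exact ⟨0, by rw [hd, mul_zero]⟩
  · obtain ⟨c, hc⟩ := surj2 Z (Units.mk0 d hd ^ 2)
    refine ⟨c, sq_inj Z ?_⟩
    have := congrArg (fun u : Kˣ => (u : K)) hc
    simp only [Units.val_mul, Units.val_pow_eq_pow_val, Units.val_mk0, Z.θu_val] at this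
    rw [mul_pow, this]

theorem wd_tab : S16.wd [1, 0, 1, 0, 1, 0, 1, 0] (S16.p 1) = S16.neg (S16.p 1) ∧ S16.wd [0] (S16.p 0) = S16.neg (S16.p 0) := by
  decide +kernel

theorem gens_F4 [Fintype K] (hK : ∃ c : Kˣ, c ≠ 1) :
    ∃ a ∈ (twF Z).G1, ∃ b ∈ (twF Z).G1, (twF Z).G1 ≤ Subgroup.closure {a, b} := by
  classical
  obtain ⟨ζ, hζ⟩ := IsCyclic.exists_generator (α := Kˣ)
  have hζ1 : ζ ≠ 1 := by
    rintro rfl
    obtain ⟨c, hc⟩ := hK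
    obtain ⟨k, hk⟩ := Subgroup.mem_zpowers_iff.1 (hζ c)
    rw [one_zpow] at hk
    exact hc hk.symm
  refine ⟨hb0 Z ζ, hb0_G1 Z ζ, fP Z 1 0 * nr K, mul_mem (fP_G1 Z 1 0) (nr_mem Z), ?_⟩
  obtain ⟨S, hS⟩ : ∃ S, S = Subgroup.closure {hb0 Z ζ, fP Z 1 0 * nr K} := ⟨_, rfl⟩
  rw [← hS]
  have hh : hb0 Z ζ ∈ S := by rw [hS]; exact Subgroup.subset_closure (by simp)
  have hb : fP Z 1 0 * nr K ∈ S := by rw [hS]; exact Subgroup.subset_closure (by simp)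
  obtain ⟨c, hc⟩ : ∃ c : K, c = (ζ : K)⁻¹ := ⟨_, rfl⟩
  have hc1 : c + 1 ≠ 0 := by rw [hc]; exact (two_ne Z hζ1).2.1
  -- a commutator
  obtain ⟨w, hw⟩ : ∃ w, fP Z ((c + 1) * (c + 1)) w ∈ S := by
    have hh' : (fP Z 1 0 * nr K) * hb0 Z ζ * (fP Z 1 0 * nr K)⁻¹ ∈ S := mul_mem (mul_mem hb hh) (inv_mem hb)
    have h1 := mul_mem (mul_mem (mul_mem hh hh') (inv_mem hh)) (inv_mem hh')
    have hcomm : hb0 Z ζ * (nr K * hb0 Z ζ * (nr K)⁻¹) = (nr K * hb0 Z ζ * (nr K)⁻¹) * hb0 Z ζ := by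
      refine (AF K).H_comm (hb0_H Z ζ) (N_conj_H ?_ (hb0_H Z ζ))
      exact mul_mem (nd_mem_N _) (nd_mem_N _)
    obtain ⟨h', hh''⟩ : ∃ h', h' = nr K * hb0 Z ζ * (nr K)⁻¹ := ⟨_, rfl⟩
    rw [← hh''] at hcomm
    have e1 : hb0 Z ζ * ((fP Z 1 0 * nr K) * hb0 Z ζ * (fP Z 1 0 * nr K)⁻¹) * (hb0 Z ζ)⁻¹ *
        ((fP Z 1 0 * nr K) * hb0 Z ζ * (fP Z 1 0 * nr K)⁻¹)⁻¹ =
        (hb0 Z ζ * fP Z 1 0 * (hb0 Z ζ)⁻¹) * (h' * ((hb0 Z ζ * fP Z 1 0 * (hb0 Z ζ)⁻¹)⁻¹ * fP Z 1 0) * h'⁻¹) *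
          (fP Z 1 0)⁻¹ := by
      have f1 : (fP Z 1 0 * nr K) * hb0 Z ζ * (fP Z 1 0 * nr K)⁻¹ = fP Z 1 0 * h' * (fP Z 1 0)⁻¹ := by
        rw [hh'']; group
      rw [f1]
      have f2 : hb0 Z ζ * (fP Z 1 0 * h' * (fP Z 1 0)⁻¹) * (hb0 Z ζ)⁻¹ * (fP Z 1 0 * h' * (fP Z 1 0)⁻¹)⁻¹ =
          (hb0 Z ζ * fP Z 1 0 * (hb0 Z ζ)⁻¹) * (hb0 Z ζ * h') * (fP Z 1 0)⁻¹ * (hb0 Z ζ)⁻¹ * fP Z 1 0 * h'⁻¹ *
            (fP Z 1 0)⁻¹ := by group
      rw [f2, hcomm]; group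
    rw [e1, hb0_fP, fP_inv, fP_mul', mul_one, mul_zero, ← hc] at h1
    obtain ⟨u', hu'⟩ := nr_fP Z ζ (c + 1) (0 + Z.θ c * c + 0 + Z.θ c * 1)
    rw [hh'', hu', fP_inv, fP_mul', fP_mul', ← hc] at h1
    have e2 : c + c * (c + 1) + 1 = (c + 1) * (c + 1) := by ring
    rw [e2] at h1
    exact ⟨_, h1⟩
  -- first coordinates
  have hD : ∀ t : K, ∃ u, fP Z t u ∈ S := by
    have h1 : ∀ k : ℕ, ∃ u, fP Z (c ^ k * ((c + 1) * (c + 1))) u ∈ S := by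
      intro k
      induction k with
      | zero => exact ⟨w, by rw [pow_zero, one_mul]; exact hw⟩
      | succ k ih =>
        obtain ⟨u, hu⟩ := ih
        have h2 := mul_mem (mul_mem hh hu) (inv_mem hh)
        rw [hb0_fP, ← hc, ← mul_assoc, ← pow_succ'] at h2
        exact ⟨_, h2⟩
    intro t
    by_cases ht : t = 0
    · exact ⟨0, by rw [ht, fP_zero]; exact one_mem _⟩
    · have hne : (c + 1) * (c + 1) ≠ 0 := mul_ne_zero hc1 hc1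
      obtain ⟨n, hn⟩ := (Submonoid.mem_powers_iff _ _).1 ((mem_powers_iff_mem_zpowers).2
        (show (Units.mk0 (t * ((c + 1) * (c + 1))⁻¹) (mul_ne_zero ht (inv_ne_zero hne))) ∈ Subgroup.zpowers ζ⁻¹ by
          rw [Subgroup.zpowers_inv]; exact hζ _))
      have h3 : c ^ n * ((c + 1) * (c + 1)) = t := by
        have := congrArg (fun u : Kˣ => (u : K)) hn
        simp only [Units.val_pow_eq_pow_val, Units.val_inv_eq_inv_val, Units.val_mk0, ← hc] at this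
        rw [this, mul_assoc, inv_mul_cancel₀ hne, mul_one]
      obtain ⟨u, hu⟩ := h1 n
      rw [h3] at hu
      exact ⟨u, hu⟩
  have hcen : ∀ d : K, fP Z 0 d ∈ S := by
    intro d
    obtain ⟨t, ht⟩ := exists_norm Z d
    obtain ⟨u, hu⟩ := hD t
    have h1 := mul_mem hu hu
    rw [fP_mul', self_add Z, self_add Z, zero_add, ht] at h1
    exact h1
  have hall : ∀ t u : K, fP Z t u ∈ S := by
    intro t u
    obtain ⟨u', hu'⟩ := hD t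
    have h1 := mul_mem hu' (hcen (u + u'))
    rw [fP_mul', add_zero, mul_zero, add_zero] at h1
    have e : u' + (u + u') = u := by linear_combination u' * Z.two
    rw [e] at h1
    exact h1
  have hn : nr K ∈ S := by
    have e : nr K = (fP Z 1 0)⁻¹ * (fP Z 1 0 * nr K) := by group
    rw [e]; exact mul_mem (inv_mem (hall 1 0)) hb
  have m1 : (twF Z).X' (S16.p 1) ≤ S := by
    intro x hx
    obtain ⟨t, u, rfl⟩ := (mem_X1 Z x).1 hx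
    exact hall t u
  have m1' : (twF Z).X' (S16.neg (S16.p 1)) ≤ S := by
    refine moveW (twF Z) [1, 0, 1, 0, 1, 0, 1, 0] ?_ (Or.inl wd_tab.1) m1
    have e : (([1, 0, 1, 0, 1, 0, 1, 0] : List (Fin 2)).map (twF Z).nj).prod = nr K * (nr K * (nr K * nr K)) := by
      have e1 : nr K = (twF Z).nj 1 * (twF Z).nj 0 := rfl
      rw [e1]
      simp only [List.map_cons, List.map_nil, List.prod_cons, List.prod_nil, mul_one, mul_assoc]
    rw [e]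
    exact mul_mem hn (mul_mem hn (mul_mem hn hn))
  have hj1 : (twF Z).nj 1 ∈ S := nj_mem_of (twF Z) m1 m1'
  have hj0 : (twF Z).nj 0 ∈ S := by
    have e : (twF Z).nj 0 = ((twF Z).nj 1)⁻¹ * nr K := by
      have e1 : nr K = (twF Z).nj 1 * (twF Z).nj 0 := rfl
      rw [e1]; group
    rw [e]; exact mul_mem (inv_mem hj1) hn
  have hj1' : (RF K).nd (LF 1) ∈ S := hj1
  have hj0' : (RF K).nd (LF 0) ∈ S := hj0
  -- the even classes
  have g7 : (g8 7 : ↥(chevF4.group K)) ∈ S := by rw [g8_7 Z]; exact hall 1 0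
  have g1 : (g8 1 : ↥(chevF4.group K)) ∈ S := by
    have := nd0_g8 Z (k := 7) (by norm_num) (by norm_num)
    rw [← show (8 - 7 : ℕ) = 1 from rfl, ← this]
    exact mul_mem (mul_mem hj0' g7) (inv_mem hj0')
  have g5 : (g8 5 : ↥(chevF4.group K)) ∈ S := by
    have := nd1_g8 Z (k := 1) (by norm_num)
    rw [← show (6 - 1 : ℕ) = 5 from rfl, ← this]
    exact mul_mem (mul_mem hj1' g1) (inv_mem hj1')
  have g6 : (g8 6 : ↥(chevF4.group K)) ∈ S := by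
    have h1 := g8_comm (K := K) Z.two (i := 5) (j := 7) (by norm_num) (by norm_num) (by norm_num)
    have e : (g8s (cW 5 7) : ↥(chevF4.group K)) = g8 6 := by
      have e1 : cW 5 7 = [6] := by decide
      rw [e1]; simp [g8s]
    rw [e] at h1
    have e2 : (g8 6 : ↥(chevF4.group K)) = (g8 5 * g8 7)⁻¹ * (g8 7 * g8 5) := by rw [h1]; group
    rw [e2]
    exact mul_mem (inv_mem (mul_mem g5 g7)) (mul_mem g7 g5)
  have g0 : (g8 0 : ↥(chevF4.group K)) ∈ S := by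
    have := nd1_g8 Z (k := 6) (by norm_num)
    rw [← show (6 - 6 : ℕ) = 0 from rfl, ← this]
    exact mul_mem (mul_mem hj1' g6) (inv_mem hj1')
  rw [g8_0 Z] at g0
  have m0 : (twF Z).X' (S16.p 0) ≤ S := by
    intro x hx
    obtain ⟨t, rfl⟩ := (mem_X0 Z x).1 hx
    by_cases ht : t = 0
    · rw [ht]
      have : eP Z 0 = 1 := by unfold eP; rw [map_zero, xF_zero, xF_zero, mul_one]
      rw [this]; exact one_mem _
    · have h2 : ringChar K = 2 := by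
        have : CharP K 2 := CharTwo.of_one_ne_zero_of_two_eq_zero one_ne_zero Z.two
        exact ringChar.eq K 2 ▸ rfl
      obtain ⟨a, ha⟩ := FiniteField.isSquare_of_char_two h2 t
      have ha0 : a ≠ 0 := by rintro rfl; apply ht; rw [ha, mul_zero]
      obtain ⟨n, hn'⟩ := (Submonoid.mem_powers_iff _ _).1 ((mem_powers_iff_mem_zpowers).2 (hζ (Units.mk0 a ha0)))
      have h3 : (ζ : K) ^ n = a := by
        have := congrArg (fun u : Kˣ => (u : K)) hn'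
        simpa using this
      have h4 : ∀ k : ℕ, eP Z (((ζ : K) ^ k) ^ 2) ∈ S := by
        intro k
        induction k with
        | zero => rw [pow_zero, one_pow]; exact g0
        | succ k ih =>
          have h5 := mul_mem (mul_mem hh ih) (inv_mem hh)
          rw [hb0_eP] at h5
          have e : ((ζ : K) ^ (k + 1)) ^ 2 = (ζ : K) ^ 2 * ((ζ : K) ^ k) ^ 2 := by ring
          rw [e]; exact h5
      have h6 := h4 n
      rw [h3, sq, ← ha] at h6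
      exact h6
  have m0' : (twF Z).X' (S16.neg (S16.p 0)) ≤ S := by
    refine moveW (twF Z) [0] ?_ (Or.inl wd_tab.2) m0
    simpa using hj0
  rw [(twF Z).G1_eq']
  refine iSup_le fun j => ?_
  rcases Tw4.j_cases j with rfl | rfl
  · exact sup_le m0 m0'
  · exact sup_le m1 m1'

end Cfsg.Agent.LSG
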