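import Cfsg.Agent.LSG.F4
import Cfsg.Agent.LSG.D4Main
import Cfsg.Agent.Tw4.Simp

/-!
The large Ree groups of type F4 are generated by two elements: transfer.
-/

set_option autoImplicit false

namespace Cfsg.Agent.LSG

open Cfsg.Lie Cfsg.Agent.ChevGrp Cfsg.Agent.ChevGrp.DData Cfsg.Agent.Tw4

theorem two_gen_F4 {K : Type*} [Field K] [Fintype K] {m : ℕ} (hm : 1 ≤ m) (hK : Fintype.card K = 2 ^ (2 * m + 1)) :
    ∃ a b : ↥(twistedF4 K (2 ^ m)), Subgroup.closure ({a, b} : Set ↥(twistedF4 K (2 ^ m))) = ⊤ := by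
  obtain ⟨Z, hZ⟩ := exists_Sg hK
  have hG := hG_F4 Z hZ
  obtain ⟨a, ha, b, hb, h⟩ := gens_F4 Z (exists_ne_one hK hm)
  exact two_gen_of ((MulEquiv.subgroupCongr hG).trans (Subgroup.subgroupOfEquivOfLe hle_F4)) ha hb h

end Cfsg.Agent.LSG
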